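import Cfsg.Agent.SuzR.R2
import Cfsg.Agent.Spor.J.Suz5

/-! The rank 3 characterisation of the Suzuki group: `rank3` (helper20). -/

set_option autoImplicit false
set_option maxRecDepth 100000
set_option exponentiation.threshold 100000

namespace Cfsg.Agent.SuzR

open Cfsg.Agent.Comp Cfsg.Agent.Known Subgroup Equiv Cfsg.Agent.Known.Mdl MulAction

local notation "φ0" => Spor.SuzM.φ

/-- `ε` maps `H` isomorphically onto `S`. -/
structure Emb {G : Type*} [Group G] (H : Subgroup Spor.Suz) (ε : Spor.Suz → G) (S : Subgroup G) : Prop where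
  mul : ∀ a ∈ H, ∀ b ∈ H, ε (a * b) = ε a * ε b
  inj : ∀ a ∈ H, ∀ b ∈ H, ε a = ε b → a = b
  mem : ∀ a ∈ H, ε a ∈ S
  surj : ∀ s ∈ S, ∃ a ∈ H, ε a = s

variable {G : Type*} [Group G] {H : Subgroup Spor.Suz} {ε : Spor.Suz → G} {S : Subgroup G}

def Emb.hom (h : Emb H ε S) : H →* G := MonoidHom.mk' (fun a => ε a) fun a b => h.mul a a.2 b b.2

theorem Emb.one (h : Emb H ε S) : ε 1 = 1 := h.hom.map_one

theorem Emb.inv (h : Emb H ε S) {a : Spor.Suz} (ha : a ∈ H) : ε a⁻¹ = (ε a)⁻¹ := h.hom.map_inv ⟨a, ha⟩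

theorem Emb.hinj (h : Emb H ε S) : Function.Injective h.hom := fun a b e => Subtype.ext (h.inj a a.2 b b.2 e)

theorem Emb.W (h : Emb H ε S) {z : ℕ → Spor.Suz} {w : List ℕ} (hw : ∀ i ∈ w, z i ∈ H) :
    ε (W z w) = W (fun i => ε (z i)) w := by
  induction w with
  | nil => exact h.one
  | cons a w ih =>
    have := fun i hi => hw i (List.mem_cons_of_mem _ hi)
    rw [W_cons, W_cons, h.mul _ (hw a List.mem_cons_self) _ (W_mem _ this), ih this]

theorem Emb.card (h : Emb H ε S) {T : Subgroup G} (hT : T ≤ S) :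
    Nat.card ((T.comap h.hom).map H.subtype) = Nat.card T := by
  rw [card_map_of_injective H.subtype_injective, ← card_map_of_injective h.hinj, map_comap_eq_self fun s hs => ?_]
  obtain ⟨a, ha, e⟩ := h.surj s (hT hs)
  exact ⟨⟨a, ha⟩, e⟩

theorem Emb.card' (h : Emb H ε S) : Nat.card S = Nat.card H := by
  rw [← h.card le_rfl, card_map_of_injective H.subtype_injective,
    (eq_top_iff' (S.comap h.hom)).2 fun a => h.mem a a.2, card_top]

theorem Emb.comp (h : Emb H ε S) {θ : Spor.Suz →* Spor.Suz} (hi : Function.Injective θ) (hθ : ∀ a ∈ H, θ a ∈ H) :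
    Emb H (fun a => ε (θ a)) S := by
  refine ⟨fun a ha b hb => by rw [map_mul, h.mul _ (hθ a ha) _ (hθ b hb)],
    fun a ha b hb e => hi (h.inj _ (hθ a ha) _ (hθ b hb) e), fun a ha => h.mem _ (hθ a ha), fun s hs => ?_⟩
  obtain ⟨a, ha, rfl⟩ := h.surj s hs
  obtain ⟨b, e⟩ := Finite.injective_iff_surjective.1 (show Function.Injective fun x : H => (⟨θ x, hθ x x.2⟩ : H) from
    fun x y e => Subtype.ext (hi (congrArg Subtype.val e))) ⟨a, ha⟩
  exact ⟨b, b.2, congrArg ε (congrArg Subtype.val e)⟩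

theorem Emb.ext0 (h : Emb H0 ε S) {T : Subgroup G} (hT : T ≤ S) (hc : Nat.card T = 604800) :
    ∃ ε', Emb H0 ε' S ∧ ∀ a ∈ H0, ε' a ∈ T ↔ a ∈ K0 := by
  obtain ⟨g, hg, h1⟩ := conjK (map_subtype_le _) ((h.card hT).trans hc)
  have h2 := eq_of_le_of_card_ge (K0_le.trans (Spor.genL_le (H := ((T.comap h.hom).map H0.subtype).comap
    (MulAut.conj g).toMonoidHom) fun i hi => h1 i (List.mem_range.1 hi))) (by
      rw [← Comp.card_map_conj g, map_comap_eq_self_of_surjective (MulAut.conj g).surjective, h.card hT, hc, card_K0])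
  have h3 : ∀ a ∈ H0, (MulAut.conj g).toMonoidHom a ∈ H0 := fun a ha => mul_mem (mul_mem hg ha) (inv_mem hg)
  refine ⟨_, h.comp (MulAut.conj g).injective h3, fun a ha => ?_⟩
  rw [h2]
  exact ⟨fun e => ⟨⟨_, h3 a ha⟩, e, rfl⟩, fun ⟨b, hb, e⟩ => (congrArg ε e ▸ hb : ε _ ∈ T)⟩

theorem Emb.ext1 (h : Emb H0 ε S) {φ : Spor.Suz → G} {T : Subgroup G} (hφ : Emb H0 φ T) (u : Spor.Suz)
    (hu : ∀ k ∈ K0, u * k * u⁻¹ ∈ H0) (hS : ∀ k ∈ K0, φ (u * k * u⁻¹) ∈ S) :
    ∃ ε', Emb H0 ε' S ∧ ∀ k ∈ K0, ε' k = φ (u * k * u⁻¹) := by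
  let β : K0 →* G := MonoidHom.mk' (fun k => φ (u * k * u⁻¹)) fun a b => by
    rw [← hφ.mul _ (hu a a.2) _ (hu b b.2), coe_mul]; congr 1; group
  have hβ : Function.Injective β := fun a b e => Subtype.ext (by simpa using hφ.inj _ (hu a a.2) _ (hu b b.2) e)
  obtain ⟨ε', h1, h2⟩ := h.ext0 (T := β.range) (by rintro _ ⟨k, rfl⟩; exact hS k k.2)
    ((Nat.card_congr (MonoidHom.ofInjective hβ).toEquiv).symm.trans card_K0)
  choose f hf hf' using fun k : K0 => h1.surj (β k) (hS k k.2)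
  obtain ⟨θ, t1, t2, t3⟩ := aut (MonoidHom.mk' f fun a b => h1.inj _ (hf _) _ (mul_mem (hf a) (hf b)) (by
    rw [h1.mul _ (hf a) _ (hf b), hf', hf', hf', map_mul])) (fun a b e => hβ (by rw [← hf', ← hf']; exact congrArg ε' e))
    fun k => (h2 _ (hf k)).1 ⟨k, (hf' k).symm⟩
  exact ⟨_, h1.comp t1 t2, fun k hk => (congrArg ε' (t3 ⟨k, hk⟩)).trans (hf' ⟨k, hk⟩)⟩

variable {Ω : Type*} [MulAction G Ω]

theorem Emb.pt [IsPretransitive G Ω] {a : Ω} (h : Emb H ε (stabilizer G a)) (b : Ω) : ∃ ε', Emb H ε' (stabilizer G b) := by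
  obtain ⟨g, rfl⟩ := exists_smul_eq G a b
  refine ⟨fun x => g * ε x * g⁻¹, fun x hx y hy => by rw [h.mul x hx y hy]; group,
    fun x hx y hy e => h.inj x hx y hy (by simpa using e), fun x hx => ?_, fun s hs => ?_⟩
  · rw [mem_stabilizer_iff, mul_smul, inv_smul_smul, mul_smul, h.mem x hx]
  · obtain ⟨x, hx, e⟩ := h.surj (g⁻¹ * s * g) (by rw [mem_stabilizer_iff, mul_smul, mul_smul, hs, inv_smul_smul])
    exact ⟨x, hx, by rw [e]; group⟩

theorem conjK0 {h l : Spor.Suz} (hh : h ∈ H0) (hl : l ∈ H0) : h⁻¹ * l * h ∈ K0 ↔ φ0 l (φ0 h 1773) = φ0 h 1773 := by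
  rw [mem2, and_iff_left (mem1.1 (mul_mem (mul_mem (inv_mem hh) hl) hh)), map_mul, map_mul, map_inv, Perm.mul_apply,
    Perm.mul_apply, Perm.inv_eq_iff_eq]

theorem Emb.fix (h : Emb H0 ε S) {b : Ω} (hb : ∀ g ∈ H0, ε g • b = b ↔ g ∈ K0) {w l : Spor.Suz} (hw : w ∈ H0) (hl : l ∈ H0) :
    ε l • ε w • b = ε w • b ↔ φ0 l (φ0 w 1773) = φ0 w 1773 := by
  rw [← conjK0 hw hl, ← hb _ (mul_mem (mul_mem (inv_mem hw) hl) hw), h.mul _ (mul_mem (inv_mem hw) hl) _ hw,
    h.mul _ (inv_mem hw) _ hl, h.inv hw, mul_smul, mul_smul, inv_smul_eq_iff]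

theorem final [Finite G] (hG : Nat.card G = 448345497600) {φ : Spor.Suz → G} (hφ : Emb H0 φ S) (z : ℕ → G)
    (h1 : ∀ i < 6, z i = φ (Y i)) (h2 : ∀ r ∈ Spor.JSuz5.rels, W z r = 1) : Nonempty (G ≃* Spor.Suz) := by
  let x : ℕ → G × Spor.Suz := fun i => if i < 12 then (z i, Y i) else 1
  let D : H0 →* G × Spor.Suz := hφ.hom.prod H0.subtype
  have hY : ∀ i < 6, Y i ∈ H0 := fun i hi => lfix (by clear h1; revert i; decide +kernel)
  have hx : ∀ i (hi : i < 6), x i = D ⟨Y i, hY i hi⟩ := fun i hi => (if_pos (by omega)).trans (Prod.ext (h1 i hi) rfl)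
  have hc := (Spor.CardLe.of_relIndex (m := 251596800) ⟨inferInstance, card_H0 ▸ (card_range_dvd D |> Nat.le_of_dvd Nat.card_pos)⟩
    (Spor.JSuz5.relIndex_le (g := fun i => (x i)⁻¹) (by simp [x]) (fun r hr => by
      have k : ∀ r ∈ Spor.JSuz5.rels, eqB acR BS r [] = true ∧ ∀ i ∈ r, i < 12 := by decide +kernel
      rw [ev_inv, inv_eq_one, W_cg (z := fun i => (z i, Y i)) fun i hi => if_pos ((k r hr).2 i hi)]
      exact Prod.ext ((map_W (fun i => (z i, Y i)) (MonoidHom.fst _ _) r).trans (h2 r hr))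
        ((map_W (fun i => (z i, Y i)) (MonoidHom.snd _ _) r).trans (mR.eq (k r hr).1)))
      (H := D.range) fun w hw => by
        have k : ∀ w ∈ Spor.JSuz5.subs, ∃ i < 6, w = [i] := by decide
        obtain ⟨i, hi, rfl⟩ := k w hw
        rw [Spor.ev_cons, Spor.ev_nil, one_mul, hx i hi]; exact inv_mem ⟨_, rfl⟩)).2
  set X := Spor.genL (fun i => (x i)⁻¹) (List.range 12)
  have hX : ∀ i < 12, x i ∈ X := fun i hi => inv_mem_iff.1 (Spor.mem_genL (fun i => (x i)⁻¹) (List.mem_range.2 hi))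
  let π := (MonoidHom.snd G Spor.Suz).comp X.subtype
  let ρ := (MonoidHom.fst G Spor.Suz).comp X.subtype
  have hπ : Function.Surjective π := MonoidHom.range_eq_top.1 (eq_top_iff.2 (mR.top ▸ Spor.genL_le fun i hi =>
    have : i < 12 := by have := List.mem_range.1 hi; omega
    ⟨⟨_, hX i this⟩, congrArg Prod.snd (if_pos this)⟩))
  have := Spor.SuzM.simple
  rcases (Normal.map ρ.normal_ker π hπ).eq_bot_or_eq_top with e | e
  · have hρ : Function.Injective ρ := (injective_iff_map_eq_one ρ).2 fun a ha =>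
      Subtype.ext (Prod.ext ha (mem_bot.1 (e ▸ mem_map_of_mem π ha)))
    have c1 := Nat.card_le_card_of_injective ρ hρ
    have c2 := Nat.card_le_card_of_surjective π hπ
    rw [Spor.SuzM.card] at c2
    exact ⟨(MulEquiv.ofBijective ρ ((Nat.bijective_iff_injective_and_card ρ).2 ⟨hρ, by omega⟩)).symm.trans
      (MulEquiv.ofBijective π ((Nat.bijective_iff_surjective_and_card π).2 ⟨hπ, by rw [Spor.SuzM.card]; omega⟩))⟩
  have h3 : ∀ h : H0, ∀ γ : Spor.Suz, (φ h, γ) ∈ X := fun h γ => by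
    obtain ⟨a, ha, e1⟩ : (h : Spor.Suz)⁻¹ * γ ∈ ρ.ker.map π := e ▸ mem_top _
    obtain ⟨b, hb, e2⟩ := Spor.genL_le (H := (X.comap D).map H0.subtype) (fun i hi =>
      have hi := List.mem_range.1 hi
      ⟨⟨_, hY i hi⟩, show D _ ∈ X from hx i hi ▸ hX i (by omega), rfl⟩) (H0_le h.2)
    rw [show b = h from Subtype.ext e2] at hb
    rw [show (φ h, γ) = D h * a.1 from Prod.ext ((mul_one _).symm.trans (congrArg _ (Eq.symm ha)))
      ((mul_inv_cancel_left _ _).symm.trans (congrArg _ e1.symm))]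
    exact mul_mem hb a.2
  have c := Nat.card_le_card_of_injective (fun t : H0 × Spor.Suz => (⟨_, h3 t.1 t.2⟩ : X)) fun s t e =>
    Prod.ext (hφ.hinj (congrArg (fun a : X => a.1.1) e)) (congrArg (fun a : X => a.1.2) e)
  rw [Nat.card_prod, card_H0, Spor.SuzM.card] at c
  omega

def sw6 (i : ℕ) : List ℕ := [nthL 0 [0,1,2,3,4,5,5,7,8,9,10,10] i]

theorem rank3 [Finite G] [Finite Ω] [IsPretransitive G Ω] (hΩ : Nat.card Ω = 1782) {a b c : Ω}
    (hε : Emb H0 ε (stabilizer G a)) (hb : (orbit (stabilizer G a) b).ncard = 416)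
    (hc : (orbit (stabilizer G a) c).ncard = 1365) : Nonempty (G ≃* Spor.Suz) := by
  have cS := hε.card'.trans card_H0
  have hG : Nat.card G = 448345497600 := by
    rw [← (stabilizer G a).index_mul_card, index_stabilizer_of_transitive, hΩ, cS]
  have n : ∀ d, (orbit (stabilizer G a) d).ncard ≠ 1 → a ∉ orbit (stabilizer G a) d := fun d hd h => hd (by
    rw [← orbit_eq_iff.2 h, Set.ncard_eq_one]
    exact ⟨a, Set.eq_singleton_iff_unique_mem.2 ⟨mem_orbit_self a, by rintro _ ⟨g, rfl⟩; exact g.2⟩⟩)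
  have tri : ∀ y, y ≠ a → y ∉ orbit (stabilizer G a) b → y ∈ orbit (stabilizer G a) c := fun y h1 h2 => by
    have h3 := Set.eq_of_subset_of_ncard_le (Set.subset_univ (insert a (orbit (stabilizer G a) b ∪ orbit (stabilizer G a) c))) (by
      rw [Set.ncard_insert_of_notMem (fun h => h.elim (n b (by omega)) (n c (by omega))),
        Set.ncard_union_eq (Set.disjoint_left.2 fun z z1 z2 => by
          rw [← orbit_eq_iff.2 z1, orbit_eq_iff.2 z2] at hb; omega), Set.ncard_univ]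
      omega)
    exact ((h3.symm.subset (Set.mem_univ y)).resolve_left h1).resolve_left h2
  obtain ⟨φ, hφ, f1⟩ := hε.ext0 (T := stabilizer G a ⊓ stabilizer G b) inf_le_left (by
    have := card_eq_ncard_orbit_mul (stabilizer G a) b
    rw [hb, cS] at this; omega)
  replace f1 : ∀ g ∈ H0, φ g • b = b ↔ g ∈ K0 := fun g hg => (and_iff_right (hφ.mem g hg)).symm.trans (f1 g hg)
  obtain ⟨ψ, hψ, f2⟩ := (hε.pt b).elim fun _ h => h.ext1 hφ 1 (fun k hk => by simpa using KH hk)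
    fun k hk => by simpa using (f1 k (KH hk)).2 hk
  simp only [one_mul, inv_one, mul_one] at f2
  have f3 : ∀ g ∈ H0, ψ g • a = a ↔ g ∈ K0 := fun g hg => ⟨fun h => by
    obtain ⟨k, hk, e⟩ := hφ.surj _ h
    have h1 := (f1 k hk).1 (e ▸ hψ.mem g hg)
    rwa [← hψ.inj k hk g hg ((f2 k h1).trans e)], fun h => (f2 g h).symm ▸ hφ.mem g hg⟩
  have hw : W Y [4, 10] ∈ H0 := wfix (by decide +kernel)
  have hwq : φ0 (W Y [4, 10]) 1773 = 1434 := app (by decide +kernel)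
  generalize W Y [4, 10] = w at hw hwq
  have f4 : ∀ l ∈ H0, φ0 l 1434 = 1434 → φ l • φ w • b = φ w • b := fun l hl h => (hφ.fix f1 hw hl).2 (hwq.symm ▸ h)
  have f5 : ∀ l ∈ H0, φ0 l 1434 = 1434 → ψ l • ψ w • a = ψ w • a := fun l hl h => (hψ.fix f3 hw hl).2 (hwq.symm ▸ h)
  have hL : ∀ i ∈ [1, 2, 7, 8, 9, 12], Y i ∈ K0 ∧ φ0 (Y i) 1434 = 1434 := fun i hi =>
    have k : ∀ i ∈ [1, 2, 7, 8, 9, 12], allL [1434, 1773, 1776] (fun p => band (Nat.blt p 1782)
      (Nat.beq (actW acR [i] p) p)) = true := by decide +kernel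
    ⟨fun p hp => lfix (k i hi) p (List.mem_cons_of_mem _ hp), lfix (k i hi) _ List.mem_cons_self⟩
  have f6 : ψ w • a = φ w • b := by
    have n1 : ψ w • a ≠ a := fun h => absurd (hwq.symm.trans (mem2.1 ((f3 w hw).1 h)).1) (by decide)
    obtain ⟨⟨_, hs⟩, e⟩ : ψ w • a ∈ orbit (stabilizer G a) b := by_contra fun h => by
      have c1 := card_eq_ncard_orbit_mul (stabilizer G a) (ψ w • a)
      rw [orbit_eq_iff.2 (tri _ n1 h), hc, cS] at c1
      have k : W Y [1, 7, 9] ∈ K0 := wfix (by decide +kernel)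
      have o : orderOf (φ (W Y [1, 7, 9])) = 7 := (orderOf_injective hφ.hom hφ.hinj ⟨_, KH k⟩).trans
        ((orderOf_mk _ _).trans (ord_of mR (a := 0) (by norm_num) (by decide +kernel)))
      have := orderOf_dvd_natCard (stabilizer G a ⊓ stabilizer G (ψ w • a)) (x := φ (W Y [1, 7, 9]))
        ⟨hφ.mem _ (KH k), f2 _ k ▸ f5 _ (KH k) (fix_of mR (by decide +kernel))⟩
      rw [o] at this; omega
    obtain ⟨h, hh, rfl⟩ := hφ.surj _ hs
    change φ h • b = _ at e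
    have k : ∀ i ∈ [1, 2, 7, 8, 9, 12], φ0 (Y i) (φ0 h 1773) = φ0 h 1773 := fun i hi =>
      (hφ.fix f1 hh (KH (hL i hi).1)).1 (by rw [e, ← f2 _ (hL i hi).1]; exact f5 _ (KH (hL i hi).1) (hL i hi).2)
    have k2 := fix2 (l := [1434, 1773, 1776]) (by decide +kernel) (mR.lt h (by decide)) (k 7 (by decide)) (k 9 (by decide))
    simp only [List.mem_cons, List.not_mem_nil, or_false] at k2
    rcases k2 with k2 | k2 | k2
    · have := (f1 _ (mul_mem (inv_mem hw) hh)).2 (mem2.2 ⟨by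
        rw [map_mul, map_inv, Perm.mul_apply, Perm.inv_eq_iff_eq, k2, hwq], mem1.1 (mul_mem (inv_mem hw) hh)⟩)
      rwa [hφ.mul _ (inv_mem hw) _ hh, hφ.inv hw, mul_smul, inv_smul_eq_iff, e] at this
    · rw [(f1 h hh).2 (mem2.2 ⟨k2, mem1.1 hh⟩)] at e
      exact absurd (smul_left_cancel _ ((hψ.mem w hw).trans e) ▸ mem_orbit_self b) (n b (by omega))
    · exact absurd ((φ0 h).injective (k2.trans (mem1.1 hh).symm)) (by decide)
  have hup : φ0 (W Y [4, 11, 10]) 1776 = 1434 := app (by decide +kernel)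
  have huq : φ0 (W Y [4, 11, 10]) 1773 = 1776 := app (by decide +kernel)
  generalize W Y [4, 11, 10] = u at hup huq
  have g1 : ∀ k, u * k * u⁻¹ ∈ H0 ↔ φ0 k 1773 = 1773 := fun k => by
    rw [mem1, map_mul, map_mul, map_inv, Perm.mul_apply, Perm.mul_apply, ← huq]; simp
  have g2 : ∀ k, φ0 (u * k * u⁻¹) 1434 = 1434 ↔ k ∈ H0 := fun k => by
    rw [mem1, map_mul, map_mul, map_inv, Perm.mul_apply, Perm.mul_apply, ← hup]; simp
  obtain ⟨χ, hχ, f7⟩ := (hε.pt (φ w • b)).elim fun _ h => h.ext1 hφ u (fun k hk => (g1 k).2 (mem2.1 hk).1)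
    fun k hk => f4 _ ((g1 k).2 (mem2.1 hk).1) ((g2 k).2 (KH hk))
  have g3 : ∀ g ∈ fixB φ0 [1434], u⁻¹ * g * u ∈ H0 := fun g hg => (g2 _).1 (by simpa [mul_assoc] using mem1.1 hg)
  have hχ' : Emb (fixB φ0 [1434]) (fun g => χ (u⁻¹ * g * u)) (stabilizer G (φ w • b)) :=
    ⟨fun x hx y hy => by rw [← hχ.mul _ (g3 x hx) _ (g3 y hy)]; congr 1; group,
      fun x hx y hy e => by simpa using hχ.inj _ (g3 x hx) _ (g3 y hy) e, fun x hx => hχ.mem _ (g3 x hx), fun s hs => by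
        obtain ⟨x, hx, e⟩ := hχ.surj s hs
        exact ⟨u * x * u⁻¹, mem1.2 ((g2 x).2 hx), by simpa [mul_assoc] using e⟩⟩
  have f8 : ∀ g ∈ H0, φ0 g 1434 = 1434 → χ (u⁻¹ * g * u) = φ g := fun g hg h => by
    rw [f7 _ (mem2.2 ⟨(g1 _).1 (by simpa [mul_assoc] using hg), mem1.1 (g3 g (mem1.2 h))⟩)]; congr 1; group
  obtain ⟨χ', hχ', f8⟩ : ∃ χ', Emb (fixB φ0 [1434]) χ' (stabilizer G (φ w • b)) ∧
    ∀ g ∈ H0, φ0 g 1434 = 1434 → χ' g = φ g := ⟨_, hχ', f8⟩
  have hs : Y 10 ∈ H0 := lfix (by decide +kernel)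
  have hsx : φ0 (Y 10) 1434 = 1434 := mem1.1 (lfix (by decide +kernel))
  obtain ⟨y, hy, f9⟩ := hχ'.surj (ψ (Y 10)) (f6 ▸ f5 _ hs hsx)
  have rel : ∀ v v' : List ℕ, band (allL (appendL v v') fun i => memL i [10, 1, 2, 7, 8, 9, 12]) (eqB acR BS v v') = true →
      W (fun i => if i = 10 then y else Y i) v = W (fun i => if i = 10 then y else Y i) v' := fun v v' h => by
    simp only [band_eq, Bool.and_eq_true, allL_iff, memL_iff, appendL_eq, List.mem_append] at h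
    have k : ∀ t : List ℕ, (∀ i ∈ t, i ∈ [10, 1, 2, 7, 8, 9, 12]) → W (fun i => if i = 10 then y else Y i) t ∈ fixB φ0 [1434] ∧
        χ' (W (fun i => if i = 10 then y else Y i) t) = ψ (W Y t) := fun t ht => by
      have k1 : ∀ i ∈ t, (if i = 10 then y else Y i) ∈ fixB φ0 [1434] ∧ Y i ∈ H0 ∧
          χ' (if i = 10 then y else Y i) = ψ (Y i) := fun i hi => by
        rcases List.mem_cons.1 (ht i hi) with rfl | hi
        · exact ⟨hy, hs, f9⟩
        · rw [if_neg (by rintro rfl; simp at hi)]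
          exact ⟨mem1.2 (hL i hi).2, KH (hL i hi).1, (f8 _ (KH (hL i hi).1) (hL i hi).2).trans (f2 _ (hL i hi).1).symm⟩
      exact ⟨W_mem _ fun i hi => (k1 i hi).1, by
        rw [hχ'.W fun i hi => (k1 i hi).1, hψ.W fun i hi => (k1 i hi).2.1]; exact W_cg fun i hi => (k1 i hi).2.2⟩
    have k1 := k v fun i hi => h.1 i (Or.inl hi)
    have k2 := k v' fun i hi => h.1 i (Or.inr hi)
    exact hχ'.inj _ k1.1 _ k2.1 (by rw [k1.2, k2.2, mR.eq h.2])
  have f10 := pin (mem1.1 hy) (fun h => by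
      have := mem2.1 ((f3 _ hs).1 (by rw [← f9, f8 y (mem1.2 h) (mem1.1 hy)]; exact hφ.mem y (mem1.2 h)))
      rw [mR.apply 10 (by decide)] at this
      exact absurd this.1 (by decide +kernel))
    (by simpa using rel [10, 1] [1, 10] (by decide +kernel)) (by simpa using rel [10, 2] [2, 10] (by decide +kernel))
    (by simpa [mul_assoc] using rel [10, 12] [1, 12, 10] (by decide +kernel)) (by
      have := rel (flat [[7, 10]] (rp 0 10 [])) [] (by decide +kernel)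
      rw [W_flat, W_rp, W_nil, W_nil, mul_one] at this
      simpa [nthL_eq] using this)
  subst f10
  refine final hG hφ (fun i => if i = 6 then ψ (Y 5) else if i = 11 then ψ (Y 10) else φ (Y i))
    (fun i hi => by rw [if_neg (by omega), if_neg (by omega)]) fun r hr => ?_
  have k : ∀ r ∈ Spor.JSuz5.rels, eqB acR BS r [] = true ∧ ((∀ i ∈ r, i ∈ [0, 1, 2, 3, 4, 5, 7, 8, 9, 10]) ∨
      (eqB acR BS (flatF sw6 r) [] = true ∧ ∀ i ∈ r, i ∈ [6, 11, 0, 1, 2, 3, 4, 7, 8, 9]) ∨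
      ∀ i ∈ r, i ∈ [11, 1, 2, 7, 8, 9, 10]) := by decide +kernel
  obtain ⟨k0, k | k | k⟩ := k r hr
  · have k1 : ∀ i ∈ [0, 1, 2, 3, 4, 5, 7, 8, 9, 10], i ≠ 6 ∧ i ≠ 11 ∧ allL [1776] (fun p => band (Nat.blt p 1782)
      (Nat.beq (actW acR [i] p) p)) = true := by decide +kernel
    rw [← hφ.one, show (1 : Spor.Suz) = _ from (mR.eq k0).symm, hφ.W fun i hi => lfix (k1 i (k i hi)).2.2]
    exact W_cg fun i hi => by rw [if_neg (k1 i (k i hi)).1, if_neg (k1 i (k i hi)).2.1]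
  · have k1 : ∀ i ∈ [0, 1, 2, 3, 4, 7, 8, 9], i ≠ 6 ∧ i ≠ 11 ∧ sw6 i = [i] ∧ allL [1773, 1776] (fun p => band (Nat.blt p 1782)
      (Nat.beq (actW acR [i] p) p)) = true := by decide +kernel
    have k2 : ∀ i ∈ [6, 11, 0, 1, 2, 3, 4, 7, 8, 9], allL [1776] (fun p => band (Nat.blt p 1782)
      (Nat.beq (actW acR (sw6 i) p) p)) = true := by decide +kernel
    rw [← hψ.one, show (1 : Spor.Suz) = _ from (mR.eq k.1).symm, W_flatF, hψ.W fun i hi => wfix (k2 i (k.2 i hi))]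
    refine W_cg fun i hi => ?_
    rcases List.mem_cons.1 (k.2 i hi) with rfl | hi
    · exact congrArg ψ (mul_one _).symm
    rcases List.mem_cons.1 hi with rfl | hi
    · exact congrArg ψ (mul_one _).symm
    rw [if_neg (k1 i hi).1, if_neg (k1 i hi).2.1, (k1 i hi).2.2.1, W_cons, W_nil, mul_one, f2 _ (lfix (k1 i hi).2.2.2)]
  · have k1 : ∀ i ∈ [1, 2, 7, 8, 9, 10], i ≠ 6 ∧ i ≠ 11 ∧ allL [1434, 1776] (fun p => band (Nat.blt p 1782)
      (Nat.beq (actW acR [i] p) p)) = true := by decide +kernel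
    have k2 : ∀ i ∈ r, Y i ∈ fixB φ0 [1434] := fun i hi => (List.mem_cons.1 (k i hi)).elim (fun e => e ▸ hy)
      fun hi => mem1.2 (mem2.1 (lfix (k1 i hi).2.2)).1
    rw [← hχ'.one, show (1 : Spor.Suz) = _ from (mR.eq k0).symm, hχ'.W k2]
    refine W_cg fun i hi => ?_
    rcases List.mem_cons.1 (k i hi) with rfl | hi
    · exact f9.symm
    have := mem2.1 (lfix (k1 i hi).2.2)
    rw [if_neg (k1 i hi).1, if_neg (k1 i hi).2.1, f8 _ (mem1.2 this.2) this.1]

end Cfsg.Agent.SuzR
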