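import Cfsg.Agent.SuzR.A0
import Cfsg.Agent.Co1T.A2

/-! Frames `Fr z Q p μ`: coordinates `p : Q → W` and the action `μ : C(z) → O⁻(6,2)` with image `Ω` for a large
extraspecial `Q = 2^{1+6}` with `|C(z)/Q| = |Ω⁻(6,2)|` (`exists_Fr`, `Fr.twist`, `Fr.theta`, `Fr.trans`); `Fr.star`: for
a conjugate `u ≠ z` of `z` in `Q`, the elements of `Q_u ∩ C(z)` over the nonsingular Eichler transformations at `u` square
to `u` and have commutators with `C_Q(u)` in `⟨uz⟩` (helper24, after `Co1T.A1`, `Co1T.A2`). -/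

set_option autoImplicit false
set_option linter.unusedSectionVars false

namespace Cfsg.Agent.SuzA

open Cfsg.Agent.Geom Cfsg.Agent.Geom.Formed Subgroup Cfsg.Agent.BG Cfsg.Agent.LES Cfsg.Agent.PGrp Module
open Co1A (inner cQ cQ_val swap)

variable {G : Type*} [Group G] [Finite G] {z x y u q : G} {Q : Subgroup G} {p : G → W} {μ : C1[z] →* O6}

structure Fr (z : G) (Q : Subgroup G) (p : G → W) (μ : C1[z] →* O6) : Prop where
  le : LE Q z
  lin : ∃ e : le.toES.isES.V ≃ₗ[ZMod 2] W, (∀ x : Q, p x = e (le.toES.isES.π x)) ∧ ∀ v, S (e v) = le.toES.isES.Q v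
  act : ∀ h : C1[z], ∀ x ∈ Q, p (h.1 * x * h.1⁻¹) = (μ h).1 (p x)
  ker : ∀ h : C1[z], μ h = 1 ↔ h.1 ∈ Q
  range : μ.range = Om

namespace Fr
variable (F : Fr z Q p μ)
include F

theorem es : ES Q z := F.le.toES
theorem Q_le (hx : x ∈ Q) : x ∈ C1[z] := mem_cent1.2 (F.es.zc x hx)
theorem conj (h : C1[z]) (hx : x ∈ Q) : h.1 * x * h.1⁻¹ ∈ Q := F.le.conj_mem (mem_cent1.1 h.2) hx
theorem add (hx : x ∈ Q) (hy : y ∈ Q) : p (x * y) = p x + p y := by
  obtain ⟨e, h, -⟩ := F.lin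
  rw [h ⟨x, hx⟩, h ⟨y, hy⟩, ← map_add, ← IsES.mk_mul]; exact h ⟨_, Q.mul_mem hx hy⟩
theorem surj (v : W) : ∃ x ∈ Q, p x = v := by
  obtain ⟨e, h, -⟩ := F.lin
  obtain ⟨x, hx⟩ := F.es.isES.mk_surjective (e.symm v)
  exact ⟨x, x.2, by rw [h, hx, e.apply_symm_apply]⟩
theorem p0 (hx : x ∈ Q) : p x = 0 ↔ x = 1 ∨ x = z := by
  obtain ⟨e, h, -⟩ := F.lin
  rw [h ⟨x, hx⟩, e.map_eq_zero_iff, IsES.mk_eq_zero, F.es.mem_zp']
theorem p1 : p 1 = 0 := (F.p0 Q.one_mem).2 (.inl rfl)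
theorem pz : p z = 0 := (F.p0 F.es.zQ).2 (.inr rfl)
theorem pmz (hx : x ∈ Q) : p (x * z) = p x := by rw [F.add hx F.es.zQ, F.pz, add_zero]
theorem inv (hx : x ∈ Q) : p x⁻¹ = p x := by
  rw [← W_neg (p x), eq_neg_iff_add_eq_zero, ← F.add (Q.inv_mem hx) hx, inv_mul_cancel, F.p1]
theorem eq_iff (hx : x ∈ Q) (hy : y ∈ Q) : p x = p y ↔ y = x ∨ y = x * z := by
  rw [← inv_mul_eq_iff_eq_mul, ← inv_mul_eq_one (a := x) |>.symm.trans Iff.rfl |>.symm.trans eq_comm,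
    ← F.p0 (Q.mul_mem (Q.inv_mem hx) hy), F.add (Q.inv_mem hx) hy, F.inv hx, ← W_sub, sub_eq_zero]
theorem sq (hx : x ∈ Q) : S (p x) = 0 ↔ x * x = 1 := by
  obtain ⟨e, h, k⟩ := F.lin
  rw [h ⟨x, hx⟩, k, IsES.Q_eq_zero, pow_two, Subtype.ext_iff]; rfl
theorem sq1 (hx : x ∈ Q) (h : S (p x) = 1) : x * x = z :=
  (F.es.sq x hx).resolve_left fun e => by rw [(F.sq hx).2 e] at h; cases h
theorem comm (hx : x ∈ Q) (hy : y ∈ Q) : B (p x) (p y) = 0 ↔ Commute x y := by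
  obtain ⟨e, h, k⟩ := F.lin
  rw [h ⟨x, hx⟩, h ⟨y, hy⟩, B, QuadraticMap.polar, ← map_add, k, k, k, ← QuadraticMap.polar, IsES.polar_Q, IsES.B_eq_zero]
  exact ⟨fun h => congrArg Subtype.val h, fun h => Subtype.ext h⟩
theorem card : #Q = 128 := by
  obtain ⟨e, -⟩ := F.lin
  rw [F.es.isES.card_eq_mul, Nat.card_congr e.toEquiv]; simp
theorem mem (h : C1[z]) : μ h ∈ Om := F.range ▸ ⟨h, rfl⟩
theorem lift {g : O6} (hg : g ∈ Om) : ∃ h, μ h = g := by rwa [← F.range] at hg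
theorem cardH : #C1[z] = 128 * 25920 := by
  have := μ.ker.card_mul_index
  rw [index_ker, F.range, card_Om, show μ.ker = Q.subgroupOf C1[z] from Subgroup.ext F.ker,
    Nat.card_congr (subgroupOfEquivOfLe fun x => F.Q_le).toEquiv, F.card] at this
  exact this.symm

theorem twist (σ : O6) : Fr z Q (fun x => σ.1 (p x)) ((MulAut.conj σ).toMonoidHom.comp μ) where
  le := F.le
  lin := by
    obtain ⟨e, h, k⟩ := F.lin
    exact ⟨e.trans σ.1, fun x => congrArg σ.1 (h x), fun v => (OG.map_Q σ _).trans (k v)⟩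
  act h x hx := by
    show σ.1 _ = σ.1 ((μ h).1 (σ⁻¹.1 (σ.1 (p x))))
    rw [F.act h x hx, OG.inv_apply_apply]
  ker h := by rw [← F.ker]; exact (MulAut.conj σ).map_eq_one_iff
  range := by rw [MonoidHom.range_comp, F.range]; exact Normal.conj_smul_eq_self σ Om

theorem lift_fix {g : O6} (hg : g ∈ Om) (hx : x ∈ Q) (hy : y ∈ Q) (h0 : p y ≠ 0) (e : g.1 (p x) = p y) :
    ∃ h : C1[z], μ h = g ∧ h.1 * x * h.1⁻¹ = y := by
  obtain ⟨h, rfl⟩ := F.lift hg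
  rw [← F.act h x hx, eq_comm] at e
  rcases (F.eq_iff hy (F.conj h hx)).1 e with e | e
  · exact ⟨h, rfl, e⟩
  · rw [Ne, F.p0 hy, not_or] at h0
    obtain ⟨q, hq, f⟩ := F.es.exists_conj hy h0.1 h0.2
    refine ⟨⟨q, F.Q_le hq⟩⁻¹ * h, by rw [map_mul, map_inv, (F.ker _).2 hq, inv_one, one_mul], ?_⟩
    show q⁻¹ * h.1 * x * (q⁻¹ * h.1)⁻¹ = y
    rw [show q⁻¹ * h.1 * x * (q⁻¹ * h.1)⁻¹ = q⁻¹ * (h.1 * x * h.1⁻¹) * q by group, e, ← f]; group

theorem trans (hx : x ∈ Q) (hy : y ∈ Q) (x2 : x * x = 1) (y2 : y * y = 1) (x0 : p x ≠ 0) (y0 : p y ≠ 0) :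
    ∃ h : C1[z], h.1 * x * h.1⁻¹ = y := by
  obtain ⟨a, ha, e⟩ := exists_move ((F.sq hx).2 x2) x0
  obtain ⟨b, hb, f⟩ := exists_move ((F.sq hy).2 y2) y0
  exact (F.lift_fix (Om.mul_mem (Om.inv_mem hb) ha) hx hy y0 (by
    rw [OG.mul_apply, e, ← f, OG.inv_apply_apply])).imp fun _ h => h.2

theorem inner (φ : Q ≃* Q) (hφ : ∀ x : Q, p (φ x) = p x) : ∃ q ∈ Q, ∀ x : Q, (φ x).1 = q * x * q⁻¹ := by
  obtain ⟨e, h, -⟩ := F.lin
  exact Co1A.inner F.es φ fun x => e.injective (by rw [← h, ← h, hφ])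

theorem theta {G' : Type*} [Group G'] [Finite G'] {z' : G'} {Q' : Subgroup G'} {p' : G' → W} {μ' : C1[z'] →* O6}
    (F' : Fr z' Q' p' μ') : ∃ θ : Q' ≃* Q, ∀ x, p (θ x) = p' x := by
  obtain ⟨e, h, k⟩ := F.lin
  obtain ⟨e', h', k'⟩ := F'.lin
  have hq : ∀ v, F.es.isES.Q ((e'.trans e.symm) v) = F'.es.isES.Q v := fun v => by
    rw [← k, ← k', LinearEquiv.trans_apply, e.apply_symm_apply]
  obtain ⟨θ, -, hθ⟩ := F'.es.isES.exists_mulEquiv F.es.isES (e'.trans e.symm) (fun v w => by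
    rw [← IsES.polar_Q, ← IsES.polar_Q, QuadraticMap.polar, QuadraticMap.polar, ← map_add, hq, hq, hq]) hq
  exact ⟨θ, fun x => by rw [h, hθ, h', LinearEquiv.trans_apply, e.apply_symm_apply]⟩

end Fr

theorem exists_Fr (h : LE Q z) (hQ : #Q = 2 ^ 7) (hc : #C1[z] = 2 ^ 7 * 25920) : ∃ p μ, Fr z Q p μ := by
  classical
  have E := h.toES.isES
  have nd' := E.quad_nondeg_iff.2 h.toES.center'
  have hz : ∀ g, cQ h g ⟨z, h.zQ⟩ = ⟨z, h.zQ⟩ := fun g => Subtype.ext (mul_inv_eq_iff_eq_mul.2 (mem_cent1.1 g.2))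
  have ex : ∀ g : C1[z], ∃ a : OG E.Q, ∀ x, a.1 (E.π x) = E.π (cQ h g x) := fun g => by
    have w : ∀ x, E.π (cQ h g (E.out (E.π x))) = E.π (cQ h g x) := fun x => by
      obtain ⟨u, hu, e⟩ := E.exists_out x
      rw [e, map_mul, E.mk_mul, (E.mk_eq_zero (x := cQ h g u)).2, add_zero]
      rw [← hz g]; exact mem_map_of_mem (cQ h g).toMonoidHom hu |> (MonoidHom.map_zpowers _ _).le
    let f : E.V →ₗ[ZMod 2] E.V := AddMonoidHom.toZModLinearMap 2 <| AddMonoidHom.mk'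
      (fun v => E.π (cQ h g (E.out v))) fun a b => by
        obtain ⟨a, rfl⟩ := E.mk_surjective a
        obtain ⟨b, rfl⟩ := E.mk_surjective b
        rw [← E.mk_mul, w, w, w, map_mul, E.mk_mul]
    have su : Function.Surjective f := fun v => by
      obtain ⟨a, rfl⟩ := E.mk_surjective v
      exact ⟨E.π ((cQ h g).symm a), (w _).trans (by rw [MulEquiv.apply_symm_apply])⟩
    refine ⟨⟨.ofBijective f su.bijective_of_finite, mem_isom_ofQuad.2 fun v => ?_⟩, w⟩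
    obtain ⟨a, rfl⟩ := E.mk_surjective v
    have : E.Q (E.π (cQ h g a)) = 0 ↔ E.Q (E.π a) = 0 := by
      rw [E.Q_eq_zero, E.Q_eq_zero, ← map_pow, MulEquiv.map_eq_one_iff]
    refine (congrArg E.Q (w a)).trans ?_
    revert this; generalize E.Q (E.π (cQ h g a)) = s; generalize E.Q (E.π a) = t; revert s t; decide
  choose ν hν using ex
  let ν' : C1[z] →* OG E.Q := MonoidHom.mk' ν fun a b => OG.ext fun v => by
    obtain ⟨x, rfl⟩ := E.mk_surjective v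
    rw [OG.mul_apply, hν, hν, hν, map_mul]; rfl
  have ker : ∀ g, ν' g = 1 ↔ g.1 ∈ Q := fun g => by
    refine ⟨fun e => ?_, fun hg => OG.ext fun v => ?_⟩
    · obtain ⟨q, hq, f⟩ := inner h.toES (cQ h g) fun x => by rw [← hν, show ν g = 1 from e]; rfl
      have := h.cQ (q⁻¹ * g) fun y hy => by
        have : g.1 * y * g.1⁻¹ = q * y * q⁻¹ := f ⟨y, hy⟩
        refine cj_eq_iff_comm.1 ?_
        rw [show q⁻¹ * g.1 * y * (q⁻¹ * g.1)⁻¹ = q⁻¹ * (g.1 * y * g.1⁻¹) * q by group, this]; group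
      rw [← Q.mul_mem_cancel_left (Q.inv_mem hq)]
      rcases this with e | e <;> rw [e]
      exacts [Q.one_mem, h.zQ]
    · obtain ⟨x, rfl⟩ := E.mk_surjective v
      refine (hν g x).trans ?_
      rw [show cQ h g x = ⟨g, hg⟩ * x * ⟨g, hg⟩⁻¹ from rfl, E.mk_mul, E.mk_mul, E.mk_inv]
      show _ = E.π x
      abel
  have cr : #ν'.range = 25920 := by
    have := ν'.ker.card_mul_index
    rw [index_ker, show ν'.ker = Q.subgroupOf C1[z] from Subgroup.ext ker,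
      Nat.card_congr (subgroupOfEquivOfLe fun x hx => mem_cent1.2 (h.zc x hx)).toEquiv, hQ, hc] at this
    omega
  have rk' : finrank (ZMod 2) E.V = 6 := E.finrank_eq hQ
  have wi : E.quad.WittIndex 2 := (E.wittIndex_cases h.toES.center' (m := 2) hQ).resolve_left fun k => by
    have := card_subgroup_dvd_card ν'.range
    rw [cr, card_isom_plus 2 nd' k rk', Nat.card_zmod] at this
    revert this; decide
  obtain ⟨e, he⟩ := exists_isIso_minus nd' (m := 2) rk' wi anis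
  let μ : C1[z] →* O6 := he.isomCongr.toMonoidHom.comp ν'
  have cr' : #μ.range = 25920 := by rw [MonoidHom.range_comp, card_map_of_injective he.isomCongr.injective, cr]
  have k' : ∀ g, μ g = 1 ↔ g.1 ∈ Q := fun g => he.isomCongr.map_eq_one_iff.trans (ker g)
  refine ⟨fun x => if hx : x ∈ Q then e (E.π ⟨x, hx⟩) else 0, μ, h, ⟨e, fun x => dif_pos x.2, he.2⟩, fun g x hx => ?_,
    k', (eq_of_le_of_card_ge ?_ ?_).symm⟩
  · rw [dif_pos hx, dif_pos (h.conj_mem (mem_cent1.1 g.2) hx)]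
    show _ = e ((ν g).1 (e.symm (e _)))
    rw [e.symm_apply_apply, hν]; rfl
  · have c := μ.range.card_mul_index
    rw [cr', card_O6] at c
    have i2 : μ.range.index = 2 := by omega
    have := normal_of_index_eq_two i2
    refine Subgroup.Normal.quotient_commutative_iff_commutator_le.1 ?_
    have : Fact (Nat.Prime 2) := ⟨Nat.prime_two⟩
    have := isCyclic_of_prime_card (p := 2) (α := O6 ⧸ μ.range) i2
    exact IsCyclic.isMulCommutative
  · rw [card_Om, cr']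

variable {P : Subgroup G} {b : W}

namespace Fr
variable {y : C1[z]}
variable (F : Fr z Q p μ) (h : Pair Q P z u) (hu : p u = e1)
include F h hu

theorem cu (hx : x ∈ Q) : B e1 (p x) = 0 ↔ Commute x u := by
  rw [← hu, F.comm h.sQ hx]; exact ⟨Commute.symm, Commute.symm⟩

theorem fix {g : O6} (hg : g ∈ Om) (e : g.1 e1 = e1) : ∃ k : C1[z], μ k = g ∧ Commute k.1 u :=
  (F.lift_fix hg h.sQ h.sQ (hu ▸ e1_ne) (hu ▸ e)).imp fun _ k => ⟨k.1, cj_eq_iff_comm.1 k.2⟩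

theorem inter (hx : x ∈ Q) (hx' : x ∈ P) : (x = 1 ∨ x = z) ∨ x = u ∨ x = u * z := by
  by_contra H
  rw [← F.p0 hx, ← F.eq_iff h.sQ hx, hu, not_or] at H
  obtain ⟨g, hg, e, f⟩ := G1 ((F.sq hx).2 (Mon.Pair.inter_sq h hx hx')) ((F.cu h hu hx).2 (h.hP.zc x hx')) H.1
    (Ne.symm H.2)
  obtain ⟨k, rfl, c⟩ := F.fix h hu hg e
  rw [← F.act k x hx, (F.comm hx (F.conj k hx)).2 (Mon.Pair.inter_comm h hx hx' (F.conj k hx) (h.hP.conj_mem c hx'))] at f
  cases f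

theorem inter_c {t : G} (ht : t ∈ Q) (ht' : t ∈ P) (hz : Commute x z) (c : Commute x u) : Commute x t := by
  rcases F.inter h hu ht ht' with (e | e) | e | e <;> rw [e]
  exacts [.one_right _, hz, c, c.mul_right hz]

theorem ex_b (hy : y.1 ∈ P) : ∃ b, B e1 b = 0 ∧ μ y = eich S e1 b := by
  refine G2 Se1 e1_ne (by rw [← hu, ← F.act y u h.sQ, cj_eq_iff_comm.2 (h.hP.zc _ hy)]) fun v hv => ?_
  obtain ⟨x, hx, rfl⟩ := F.surj v
  have m : y.1 * x * y.1⁻¹ * x⁻¹ ∈ Q := Q.mul_mem (F.conj y hx) (Q.inv_mem hx)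
  have m' : y.1 * x * y.1⁻¹ * x⁻¹ ∈ P := by
    rw [mul_assoc, mul_assoc, ← mul_assoc x]
    exact P.mul_mem hy (h.hP.conj_mem ((F.cu h hu hx).1 hv) (P.inv_mem hy))
  have := F.inter h hu m m'
  rw [← F.p0 m, ← F.eq_iff h.sQ m, F.add (F.conj y hx) (Q.inv_mem hx), F.inv hx, F.act y x hx, hu] at this
  exact this.imp (fun e => by rw [← W_sub, sub_eq_zero] at e; exact e)
    fun e => by rw [e, add_comm, add_assoc, W_add, add_zero]

theorem onto (hb : B e1 b = 0) : ∃ y : C1[z], y.1 ∈ P ∧ μ y = eich S e1 b := by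
  classical
  let f := μ.comp (inclusion (inf_le_right : P ⊓ C1[z] ≤ C1[z]))
  let T := (Finset.range 16).image fun k => eich S e1 (cv (2 * (k % 2) + 8 * (k / 2)))
  have hT : ∀ b, B e1 b = 0 → eich S e1 b ∈ T := fun b hb =>
    let ⟨k, hk, e⟩ := (G5 hb).2.2
    Finset.mem_image.2 ⟨k, Finset.mem_range.2 hk, e.symm⟩
  have c1 : #(P ⊓ C1[z] : Subgroup G) = 64 := by
    have := Mon.half h.hP.toES h.zP h.hQ.toES.z1 h.ne.symm
    obtain ⟨g, -, k⟩ := h.tr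
    rw [show #P = 128 by rw [← k, card_cj, F.card]] at this
    omega
  have c2 : #f.ker ≤ 4 := by
    refine le_trans (Nat.card_le_card_of_injective (β := ({1, z, u, u * z} : Finset G))
      (fun k => ⟨k.1.1, by simpa [or_assoc] using F.inter h hu ((F.ker _).1 k.2) k.1.2.1⟩)
      fun a b e => Subtype.ext (Subtype.ext (Subtype.mk.inj e))) ?_
    rw [Nat.card_eq_fintype_card, Fintype.card_coe]; exact Finset.card_le_four
  have c3 := f.ker.card_mul_index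
  rw [index_ker, c1] at c3
  have : (f.range : Set O6) = T := Set.eq_of_subset_of_ncard_le (by
    rintro _ ⟨k, rfl⟩
    obtain ⟨b, hb, e⟩ := F.ex_b h hu (y := inclusion inf_le_right k) k.2.1
    exact (show f k = _ from e) ▸ hT b hb) (by
    have : T.card ≤ 16 := Finset.card_image_le.trans (by simp)
    rw [Set.ncard_coe_finset, ← Nat.card_coe_set_eq]
    change _ ≤ #f.range
    have := Nat.mul_le_mul_right #f.range c2
    omega)
  obtain ⟨k, e⟩ : eich S e1 b ∈ (f.range : Set O6) := this ▸ hT b hb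
  exact ⟨inclusion inf_le_right k, k.2.1, e⟩

variable (hy : y.1 ∈ P) (hb : B e1 b = 0) (h1 : S b = 1) (e : μ y = eich S e1 b)
include hy hb h1 e

theorem L0' (hx : x ∈ Q) (a1 : B e1 (p x) = 0) (a2 : B b (p x) = 0) (a3 : S (p x) = 1) : Commute y.1 x := by
  obtain ⟨d, ⟨d1, d2, d3⟩, w, w1, w2, w3⟩ := G4 hb h1 a3 a1 a2
  obtain ⟨k, hk, c⟩ := F.fix h hu (refl_mul_mem a3 d1) (by
    rw [OG.mul_apply, refl_of_perp ((B_comm _ _).trans d2), refl_of_perp ((B_comm _ _).trans a1)])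
  obtain ⟨x0, h0, rfl⟩ := F.surj w
  have kz : Commute k.1 z := mem_cent1.1 k.2
  have m : (y⁻¹ * (k * y * k⁻¹)).1 ∈ Q := (F.ker _).1 (by
    rw [map_mul, map_mul, map_mul, map_inv, map_inv, e, conj_eich, ← hu, ← F.act k u h.sQ, cj_eq_iff_comm.2 c, hu, hk,
      OG.mul_apply, refl_of_perp ((B_comm _ _).trans d3), refl_of_perp ((B_comm _ _).trans a2), inv_mul_cancel])
  have c0 := (F.cu h hu h0).1 w1
  have c1 : Commute (k.1 * x0 * k.1⁻¹) u := (c.mul_left c0).mul_left c.inv_left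
  have t := F.inter_c h hu m (P.mul_mem (P.inv_mem hy) (h.hP.conj_mem c hy)) (F.es.zc _ (F.conj k h0)) c1
  have s := F.inter_c h hu (t := y.1 * x0 * y.1⁻¹ * x0⁻¹) (Q.mul_mem (F.conj y h0) (Q.inv_mem h0)) (by
    rw [mul_assoc, mul_assoc, ← mul_assoc x0]
    exact P.mul_mem hy (h.hP.conj_mem c0 (P.inv_mem hy))) kz c
  have r : Commute y.1 (x0⁻¹ * (k.1 * x0 * k.1⁻¹)) := by
    have t' : k.1 * x0 * k.1⁻¹ * (y.1⁻¹ * (k.1 * y.1 * k.1⁻¹)) = y.1⁻¹ * (k.1 * y.1 * k.1⁻¹) * (k.1 * x0 * k.1⁻¹) := t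
    have s' : k.1 * (y.1 * x0 * y.1⁻¹ * x0⁻¹) = y.1 * x0 * y.1⁻¹ * x0⁻¹ * k.1 := s
    generalize y.1 = Y at *; generalize k.1 = K at *
    show _ = _
    calc Y * (x0⁻¹ * (K * x0 * K⁻¹)) = (Y * x0⁻¹ * Y⁻¹) * (Y * (K * x0 * K⁻¹ * (Y⁻¹ * (K * Y * K⁻¹)))) *
          (K * Y⁻¹ * K⁻¹ * Y) := by group
      _ = (Y * x0⁻¹ * Y⁻¹) * (K * (Y * x0 * Y⁻¹ * x0⁻¹)) * (x0 * K⁻¹ * Y) := by rw [t']; group
      _ = _ := by rw [s']; group
  rcases (F.eq_iff (Q.mul_mem (Q.inv_mem h0) (F.conj k h0)) hx).1 (by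
    rw [F.add (Q.inv_mem h0) (F.conj k h0), F.inv h0, F.act k x0 h0, hk, OG.mul_apply, refl_of_perp w2, refl_ap a3, w3,
      one_smul, ← add_assoc, W_add, zero_add]) with f | f <;> rw [f]
  exacts [r, r.mul_right (mem_cent1.1 y.2)]

theorem L0 (hx : x ∈ Q) (a1 : B e1 (p x) = 0) (a2 : B b (p x) = 0) : Commute y.1 x := by
  rcases z2 (S (p x)) with a3 | a3
  · obtain ⟨t, ht, rfl⟩ := F.surj b
    have := (F.L0' h hu hy hb h1 e (Q.mul_mem hx ht) (by rw [F.add hx ht, B_add, a1, hb, add_zero])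
      (by rw [F.add hx ht, B_add, a2, B_self, add_zero])
      (by rw [F.add hx ht, S_add, a3, h1, B_comm, a2]; rfl)).mul_right (F.L0' h hu hy hb h1 e ht hb (B_self _) h1).inv_right
    rwa [mul_inv_cancel_right] at this
  · exact F.L0' h hu hy hb h1 e hx a1 a2 a3

theorem sq_u : y.1 * y.1 = u := (h.hP.sq _ hy).resolve_left fun y2 => by
  obtain ⟨w, hw⟩ := nd.exists_eq_one e1_ne
  obtain ⟨q, hq, rfl⟩ := F.surj w
  have m := Q.mul_mem (Q.inv_mem hq) (F.conj y hq)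
  have pd : p (q⁻¹ * (y.1 * q * y.1⁻¹)) = (B b (p q) + 1) • e1 + b := by
    rw [F.add (Q.inv_mem hq) (F.conj y hq), F.inv hq, F.act y q hq, e, eich_ap Se1 hb, h1, show B e1 (p q) = 1 from hw,
      mul_one, one_smul, ← add_assoc, ← add_assoc, W_add, zero_add]
  have c := F.L0 h hu hy hb h1 e m (by rw [pd, B_add, hb, B, QuadraticMap.polar_smul_right, ← B, B_self]; simp)
    (by rw [pd, B_add, B_self]; simp [B_comm b, hb])
  have d := F.sq1 m (by rw [pd, add_comm, quad_add_smul_of_perp Se1 hb, h1])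
  refine F.es.z1 (d.symm.trans ?_)
  calc _ = q⁻¹ * (y.1 * q * y.1⁻¹) * (y.1 * (q⁻¹ * (y.1 * q * y.1⁻¹)) * y.1⁻¹) := by rw [cj_eq_iff_comm.2 c]
    _ = q⁻¹ * (y.1 * y.1) * q * (y.1 * y.1)⁻¹ := by group
    _ = 1 := by rw [y2]; group

theorem L1 : ∃ c, (c = u ∨ c = u * z) ∧ ∀ x ∈ Q, Commute x u → y.1 * x * y.1⁻¹ = x ∨ y.1 * x * y.1⁻¹ = x * c := by
  obtain ⟨w, w1, w2⟩ := (G5 hb).2.1 h1
  obtain ⟨t, ht, rfl⟩ := F.surj w
  have m := Q.mul_mem (Q.inv_mem ht) (F.conj y ht)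
  have hc := (F.eq_iff h.sQ m).1 (by
    rw [F.add (Q.inv_mem ht) (F.conj y ht), F.inv ht, F.act y t ht, e, eich_ap Se1 hb, w1, w2, hu]
    simp [← add_assoc, W_add])
  refine ⟨_, hc, fun x hx c => ?_⟩
  have x1 := (F.cu h hu hx).2 c
  rcases z2 (B b (p x)) with a | a
  · exact .inl (cj_eq_iff_comm.2 (F.L0 h hu hy hb h1 e hx x1 a))
  · have k := F.L0 h hu hy hb h1 e (Q.mul_mem (Q.inv_mem ht) hx)
      (by rw [F.add (Q.inv_mem ht) hx, F.inv ht, B_add, w1, x1, add_zero])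
      (by rw [F.add (Q.inv_mem ht) hx, F.inv ht, B_add, w2, a]; rfl)
    have cc : ∀ s ∈ Q, Commute s u → Commute s (t⁻¹ * (y.1 * t * y.1⁻¹)) := fun s hs k => by
      rcases hc with f | f <;> rw [f]
      exacts [k, k.mul_right (F.es.zc s hs)]
    right
    rw [(cc x hx c).eq, ← cj_eq_iff_comm.2 (cc t ht ((F.cu h hu ht).1 w1))]
    calc _ = y.1 * t * y.1⁻¹ * (y.1 * (t⁻¹ * x) * y.1⁻¹) := by group
      _ = _ := by rw [cj_eq_iff_comm.2 k]; group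

theorem L2 : ∀ x ∈ Q, Commute x u → y.1 * x * y.1⁻¹ = x ∨ y.1 * x * y.1⁻¹ = x * (u * z) := by
  obtain ⟨c, rfl | rfl, H⟩ := F.L1 h hu hy hb h1 e
  swap
  · exact H
  exfalso
  obtain ⟨n, n1, n2, n3, n4⟩ := swap h
  have i1 : n⁻¹ * c * n = z := by rw [← n1]; group
  have i2 : n⁻¹ * z * n = c := by rw [← n2]; group
  have yz : Commute y.1 z := mem_cent1.1 y.2
  have K : ∀ (s : C1[z]) (a : W), s.1 ∈ P → B e1 a = 0 → S a = 1 → μ s = eich S e1 a → Commute y.1 (n⁻¹ * s * n) :=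
    fun s a hs a1 a2 a3 => by
    have sz : Commute s.1 z := mem_cent1.1 s.2
    have cu : Commute (n⁻¹ * s * n) c := by
      rw [← i2]; simpa using sz.map (MulAut.conj n⁻¹)
    refine cj_eq_iff_comm.1 ((H _ (mem_cj.1 (n3 ▸ hs)) cu).resolve_right fun k => ?_)
    obtain ⟨d, hd, H'⟩ := F.L1 h hu hs a1 a2 a3
    have k2 := H' (n * y.1 * n⁻¹) (n4 ▸ mem_cj'.2 ⟨_, hy, rfl⟩) (by rw [← n1]; simpa using yz.map (MulAut.conj n))
    have k3 : s.1 * (n * y.1 * n⁻¹) * s.1⁻¹ = n * y.1 * n⁻¹ * z := by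
      have : n⁻¹ * s * n * y.1 * (n⁻¹ * s * n)⁻¹ = y.1 * c := by
        have k' : y.1 * (n⁻¹ * s * n) = n⁻¹ * s * n * c * y.1 := by rw [← k]; group
        have cc := h.hP.toES.zz
        rw [(h.hP.zc _ hy).eq, mul_inv_eq_iff_eq_mul, mul_assoc c, k', cu.eq, ← mul_assoc, ← mul_assoc, cc, one_mul]
      refine Eq.trans ?_ (congrArg _ n2)
      rw [conj_mul, ← this]; group
    rw [k3, mul_eq_left, mul_right_inj] at k2
    rcases k2 with k2 | k2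
    · exact F.es.z1 k2
    · rcases hd with rfl | rfl
      · exact h.ne k2.symm
      · exact h.hP.toES.z1 (mul_eq_right.1 k2.symm)
  obtain ⟨w, w1, w2⟩ := (G5 hb).2.1 h1
  obtain ⟨t, ht, rfl⟩ := F.surj w
  let s : C1[z] := ⟨n * t * n⁻¹, mem_cent1.2 (by
    rw [← n2]; simpa using (((F.cu h hu ht).1 w1).map (MulAut.conj n)).eq)⟩
  have hs : s.1 ∈ P := n3 ▸ mem_cj'.2 ⟨_, ht, rfl⟩
  obtain ⟨a, a1, a2⟩ := F.ex_b h hu hs
  have ct : Commute y.1 (n⁻¹ * s * n) := by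
    rcases z2 (S a) with a3 | a3
    · obtain ⟨d, d1, d2, d3⟩ := (G5 a1).1
      obtain ⟨r, r1, r2⟩ := F.onto h hu d2
      have := (K r d r1 d2 d1 r2).mul_right (K (r⁻¹ * s) (d + a) (P.mul_mem (P.inv_mem r1) hs)
        (by rw [B_add, d2, a1, add_zero]) (by rw [S_add, d1, a3, B_comm, d3]; rfl)
        (by rw [map_mul, map_inv, r2, a2, eich_add Se1 d2 a1, ← eich_neg Se1 d2, W_neg]))
      rwa [coe_mul, coe_inv, show n⁻¹ * r.1 * n * (n⁻¹ * (r.1⁻¹ * s.1) * n) = n⁻¹ * s.1 * n by group] at this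
    · exact K s a hs a1 a3 a2
  rw [show n⁻¹ * s * n = t by simp [s, mul_assoc]] at ct
  have := F.act y t ht
  rw [cj_eq_iff_comm.2 ct, e, eich_ap Se1 hb, w1, w2] at this
  exact e1_ne (by simpa using this)

end Fr

theorem Fr.star (F : Fr z Q p μ) (hc : IsConj z u) (hu : u ∈ Q) (hne : u ≠ z) (hb : B (p u) b = 0) (h1 : S b = 1) :
    ∃ y : C1[z], μ y = eich S (p u) b ∧ y.1 * y.1 = u ∧
      ∀ x ∈ Q, Commute x u → y.1 * x * y.1⁻¹ = x ∨ y.1 * x * y.1⁻¹ = x * (u * z) := by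
  obtain ⟨g, rfl⟩ := isConj_iff.1 hc
  have h := F.le.pair (by rw [F.card]; decide) hu hne
  obtain ⟨σ, -, hσ⟩ := exists_move ((F.sq hu).2 h.hP.toES.zz) (by
    rw [Ne, F.p0 hu, not_or]; exact ⟨h.hP.toES.z1, hne⟩)
  have b1 : B e1 (σ.1 b) = 0 := by rw [← hσ, B, OG.map_polar]; exact hb
  have b2 := (OG.map_Q σ b).trans h1
  obtain ⟨y, hy, e⟩ := (F.twist σ).onto h hσ b1
  refine ⟨y, (MulAut.conj σ).injective (e.trans ?_), (F.twist σ).sq_u h hσ hy b1 b2 e, (F.twist σ).L2 h hσ hy b1 b2 e⟩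
  rw [MulAut.conj_apply, conj_eich, hσ]

end Cfsg.Agent.SuzA
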