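import Cfsg.Agent.SuzR.A1

/-! `Fr.iso`: two frames of type `O⁻(6,2)` with fused `z` have isomorphic involution centralisers (helper24, after
`Co1T.A3`). -/

set_option autoImplicit false
set_option linter.unusedSectionVars false
set_option maxRecDepth 100000

namespace Cfsg.Agent.SuzA

open Cfsg.Agent.Geom Cfsg.Agent.Geom.Formed Subgroup Cfsg.Agent.BG Cfsg.Agent.LES Cfsg.Agent.PGrp Module
open Co1A (inner cQ cQ_val swap)

variable {G : Type*} [Group G] [Finite G] {z x u q : G} {Q : Subgroup G} {p : G → W} {μ : C1[z] →* O6} {h k : C1[z]}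

namespace Fr
variable (F : Fr z Q p μ)
include F

theorem fused (hf : ∃ u ∈ Q, IsConj z u ∧ u ≠ z) (hx : x ∈ Q) (x2 : S (p x) = 0) (x0 : p x ≠ 0) : IsConj z x := by
  obtain ⟨u, hu, c, n⟩ := hf
  have o := (Invol.orderOf_of_isConj c).symm.trans F.es.z2
  obtain ⟨h, e⟩ := F.trans hu hx (Invol.mul_self_of o) ((F.sq hx).1 x2)
    (by rw [Ne, F.p0 hu, not_or]; exact ⟨Invol.ne_one_of o, n⟩) x0
  exact c.trans (isConj_iff.2 ⟨_, e⟩)

theorem iso {G' : Type*} [Group G'] [Finite G'] {z' : G'} {Q' : Subgroup G'} {p' : G' → W} {μ' : C1[z'] →* O6}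
    (F' : Fr z' Q' p' μ') (hf : ∃ u ∈ Q, IsConj z u ∧ u ≠ z) (hf' : ∃ u ∈ Q', IsConj z' u ∧ u ≠ z') :
    ∃ φ : C1[z'] ≃* C1[z], (∀ h, μ (φ h) = μ' h) ∧ ∀ h : C1[z'], h.1 ∈ Q' → p (φ h) = p' h := by
  obtain ⟨θ, hθ⟩ := F.theta F'
  let FF : Subgroup (C1[z] × C1[z']) := ((cQ F.le).comp (.fst _ _)).eqLocus
    (((MulAut.congr θ).toMonoidHom.comp (cQ F'.le)).comp (.snd _ _))
  have mF : ∀ {a}, a ∈ FF ↔ ∀ x, cQ F.le a.1 (θ x) = θ (cQ F'.le a.2 x) := fun {a} =>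
    ⟨fun e x => (DFunLike.congr_fun e (θ x)).trans (by simp), fun e => MulEquiv.ext fun x => by
      obtain ⟨x, rfl⟩ := θ.surjective x
      exact (e x).trans (by simp)⟩
  have θz : (θ ⟨z', F'.es.zQ⟩).1 = z := ((F.p0 (θ _).2).1 ((hθ _).trans F'.pz)).resolve_left fun e =>
    F'.es.z1 (congrArg Subtype.val (θ.map_eq_one_iff.1 (Subtype.ext e)))
  have mm : ∀ a ∈ FF, μ a.1 = μ' a.2 := fun a ha => OG.ext fun v => by
    obtain ⟨x, hx, rfl⟩ := F'.surj v
    rw [← F'.act _ x hx, ← hθ ⟨x, hx⟩, ← F.act _ _ (θ _).2, ← cQ_val F.le, mF.1 ha, hθ]; rfl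
  have ex : ∀ h h', μ h = μ' h' → ∃ q, ∃ hq : q ∈ Q, (⟨q, F.Q_le hq⟩⁻¹ * h, h') ∈ FF := fun h h' e => by
    obtain ⟨q, hq, f⟩ := F.inner (cQ F.le h * (MulAut.congr θ (cQ F'.le h'))⁻¹) fun x => by
      obtain ⟨x, rfl⟩ := (MulAut.congr θ (cQ F'.le h')).surjective x
      obtain ⟨x, rfl⟩ := θ.surjective x
      rw [MulAut.mul_apply, MulAut.inv_apply_self, cQ_val, F.act _ _ (θ x).2, hθ, e, ← F'.act _ _ x.2]
      simp [hθ, cQ_val]
    refine ⟨q, hq, ?_⟩
    have : cQ F.le h * (MulAut.congr θ (cQ F'.le h'))⁻¹ = cQ F.le ⟨q, F.Q_le hq⟩ := MulEquiv.ext fun x => Subtype.ext (f x)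
    show cQ F.le (_ * h) = MulAut.congr θ (cQ F'.le h')
    rw [map_mul, map_inv, ← this]; group
  have ex' : ∀ h', ∃ h, (h, h') ∈ FF := fun h' => by
    obtain ⟨h, e⟩ := F.lift (F'.mem h')
    obtain ⟨q, hq, f⟩ := ex h h' e
    exact ⟨_, f⟩
  let δ : Q' →* FF := (((inclusion fun _ => F.Q_le).comp θ.toMonoidHom).prod (inclusion fun _ => F'.Q_le)).codRestrict _
    fun x => mF.2 fun y => Subtype.ext (by
      rw [show cQ F'.le _ y = x * y * x⁻¹ from rfl, map_mul, map_mul, map_inv]; rfl)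
  have nD : δ.range.Normal := ⟨by
    rintro _ ⟨x, rfl⟩ a
    exact ⟨cQ F'.le a.1.2 x, Subtype.ext (Prod.ext (Subtype.ext (congrArg Subtype.val (mF.1 a.2 x).symm :)) rfl)⟩⟩
  let π : FF ⧸ δ.range →* O6 := QuotientGroup.lift _ (μ'.comp ((MonoidHom.snd _ _).comp FF.subtype)) (by
    rintro _ ⟨x, rfl⟩; exact (F'.ker _).2 x.2)
  have ζF : ((⟨z, cent1_self z⟩, 1) : C1[z] × C1[z']) ∈ FF := mF.2 fun x => Subtype.ext (by
    rw [map_one, MulAut.one_apply]; exact cj_eq_iff_comm.2 (F.es.zc _ (θ x).2).symm)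
  let ζ : FF ⧸ δ.range := QuotientGroup.mk ⟨_, ζF⟩
  have hζ : ∀ x, Commute x ζ := fun x => by
    obtain ⟨a, rfl⟩ := QuotientGroup.mk_surjective x
    exact Commute.map (Subtype.ext (Prod.ext (Subtype.ext (mem_cent1.1 a.1.1.2)) (by simp)) : Commute a ⟨_, ζF⟩)
      (QuotientGroup.mk' _)
  have ζ2 : ζ * ζ = 1 := congrArg (QuotientGroup.mk (s := δ.range))
    (Subtype.ext (Prod.ext (Subtype.ext F.es.zz) (mul_one _)) : (⟨_, ζF⟩ * ⟨_, ζF⟩ : FF) = 1)
  have hk : ∀ x, π x = 1 → x = 1 ∨ x = ζ := fun x e => by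
    obtain ⟨a, rfl⟩ := QuotientGroup.mk_surjective x
    have m := (F'.ker _).1 e
    have e2 : (a * (δ ⟨_, m⟩)⁻¹).1.2 = 1 := mul_inv_cancel _
    rw [← QuotientGroup.mk_mul_of_mem _ (δ.range.inv_mem ⟨⟨_, m⟩, rfl⟩)]
    generalize a * (δ ⟨_, m⟩)⁻¹ = b at e2
    refine (F.le.cQ b.1.1 fun x hx => cj_eq_iff_comm.1 ?_).imp
      (fun e => congrArg _ (Subtype.ext (Prod.ext (Subtype.ext e) e2) : b = 1))
      fun e => congrArg _ (Subtype.ext (Prod.ext (Subtype.ext e) e2))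
    have := congrArg Subtype.val (mF.1 b.2 (θ.symm ⟨x, hx⟩))
    rwa [e2, map_one, MulAut.one_apply, θ.apply_symm_apply] at this
  have hk' : ∀ x y, π x = π y → x = y ∨ x = y * ζ := fun x y e =>
    (hk (y⁻¹ * x) (by rw [map_mul, map_inv, e, inv_mul_cancel])).imp (fun e => (inv_mul_eq_one.1 e).symm)
      fun e => by rw [← e, mul_inv_cancel_left]
  obtain ⟨K, k1, k2⟩ := cox_split π hζ ζ2 hk (by
    refine le_antisymm ?_ fun g hg => ?_
    · rintro _ ⟨x, rfl⟩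
      obtain ⟨a, rfl⟩ := QuotientGroup.mk_surjective x
      exact F'.mem _
    · obtain ⟨h', rfl⟩ := F'.lift hg
      obtain ⟨h, e⟩ := ex' h'
      exact ⟨QuotientGroup.mk ⟨_, e⟩, rfl⟩) (fun a b ha hb ab ne y hy => by
    obtain ⟨u', hu', e'⟩ := F'.surj (a + b)
    have s0 : S (a + b) = 0 := by rw [S_add, ha, hb, ab]; rfl
    have n0 : a + b ≠ 0 := by rwa [← W_sub, sub_ne_zero]
    have b0 : B (a + b) b = 0 := by rw [B_add', ab, B_self, add_zero]
    have hu := (θ ⟨u', hu'⟩).2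
    have e : p (θ ⟨u', hu'⟩) = a + b := (hθ _).trans e'
    obtain ⟨s, s1, s2, s3⟩ := F.star (F.fused hf hu (e ▸ s0) (e ▸ n0)) hu (fun k => n0 (by rw [← e, k, F.pz])) (e ▸ b0) hb
    obtain ⟨t, t1, t2, t3⟩ := F'.star (F'.fused hf' hu' (e' ▸ s0) (e' ▸ n0)) hu' (fun k => n0 (by rw [← e', k, F'.pz]))
      (e' ▸ b0) hb
    rw [e] at s1; rw [e'] at t1
    obtain ⟨q, hq, m⟩ := ex s t (s1.trans t1.symm)
    set u := (θ ⟨u', hu'⟩).1 with hu0
    have uz := F.es.zc u hu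
    have c : ∀ x ∈ Q, Commute x u → Commute q (s.1 * x * s.1⁻¹) := fun x hx c => by
      obtain ⟨x', e2⟩ := θ.surjective ⟨x, hx⟩
      obtain rfl : (θ x').1 = x := congrArg Subtype.val e2
      have c' : Commute x'.1 u' := by rw [← F'.comm x'.2 hu', ← hθ, e', ← e, F.comm hx hu]; exact c
      have k : (θ (cQ F'.le t x')).1 = (θ x').1 ∨ (θ (cQ F'.le t x')).1 = (θ x').1 * (u * z) :=
        (t3 _ x'.2 c').imp (fun k => congrArg (fun a => (θ a).1) (Subtype.ext k)) fun k => by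
          rw [show cQ F'.le t x' = x' * (⟨u', hu'⟩ * ⟨z', F'.es.zQ⟩) from Subtype.ext k, map_mul, map_mul, coe_mul, coe_mul,
            θz]
      have k2 : p (θ (cQ F'.le t x')).1 = p (s.1 * (θ x').1 * s.1⁻¹) := by
        rw [hθ, cQ_val, F'.act _ _ x'.2, F.act _ _ hx, hθ, s1, t1]
      have k3 : p ((θ x').1 * (u * z)) ≠ p (θ x').1 := by
        rw [F.add hx (Q.mul_mem hu F.es.zQ), F.pmz hu, e]; simpa using n0
      have k4 : (θ (cQ F'.le t x')).1 = s.1 * (θ x').1 * s.1⁻¹ := by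
        rcases k with k | k <;> rcases s3 _ hx c with f | f <;> rw [k, f] at k2 ⊢
        exacts [absurd k2.symm k3, absurd k2 k3]
      have := congrArg Subtype.val (mF.1 m x')
      rw [k4] at this
      have this : q⁻¹ * s.1 * (θ x').1 * (q⁻¹ * s.1)⁻¹ = s.1 * (θ x').1 * s.1⁻¹ := this
      exact Commute.inv_left_iff.1 (cj_eq_iff_comm.1 (Eq.trans (by group) this))
    have su : Commute s.1 u := by rw [← s2]; exact (Commute.refl _).mul_right (.refl _)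
    have qu : Commute q u := cj_eq_iff_comm.2 su ▸ c u hu (.refl _)
    have u2 : u * u = 1 := (F.sq hu).1 (e ▸ s0)
    have q4 := F.es.perp1 hu hq fun x hx k => by
      have := c x hx k
      rcases s3 x hx k with f | f <;> rw [f] at this
      · exact this.symm
      · exact (mul_inv_cancel_right x (u * z) ▸ this.mul_right (qu.mul_right (F.es.zc q hq)).inv_right).symm
    have sz : Commute s.1 z := mem_cent1.1 s.2
    have q5 : q⁻¹ * s.1 * (q⁻¹ * s.1) = u := by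
      have : Commute s.1 q ∧ q * q = 1 := by
        rcases q4 with f | f | f | f <;> rw [f]
        exacts [⟨.one_right _, mul_one _⟩, ⟨sz, F.es.zz⟩, ⟨su, u2⟩, ⟨su.mul_right sz, by
          rw [uz.symm.mul_mul_mul_comm, u2, F.es.zz, mul_one]⟩]
      rw [this.1.inv_right.mul_mul_mul_comm, ← mul_inv_rev, this.2, s2, inv_one, one_mul]
    have sq : (QuotientGroup.mk ⟨_, m⟩ * QuotientGroup.mk ⟨_, m⟩ : FF ⧸ δ.range) = 1 :=
      (QuotientGroup.eq_one_iff _).2 ⟨⟨u', hu'⟩, Subtype.ext (Prod.ext (Subtype.ext q5.symm) (Subtype.ext t2.symm))⟩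
    rcases hk' y (QuotientGroup.mk ⟨_, m⟩) (hy.trans (Eq.trans (by
      rw [eich_eq_refl_mul s0 b0 (by rw [hb]; decide), hb, one_smul, add_comm a, ← add_assoc, W_add, zero_add]) t1.symm))
      with f | f <;> rw [f]
    · exact sq
    · rw [(hζ _).symm.mul_mul_mul_comm, sq, ζ2, mul_one])
  let K' : Subgroup FF := K.comap (QuotientGroup.mk' _)
  have kD : ∀ a : K', μ' a.1.1.2 = 1 → ∃ x, δ x = a := fun a e => (QuotientGroup.eq_one_iff _).1 (k1 _ a.2 e)
  let f : K' →* C1[z] := ((MonoidHom.fst _ _).comp FF.subtype).comp K'.subtype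
  let f' : K' →* C1[z'] := ((MonoidHom.snd _ _).comp FF.subtype).comp K'.subtype
  have dK : ∀ x, δ x ∈ K' := fun x => by
    show QuotientGroup.mk (δ x) ∈ K
    rw [(QuotientGroup.eq_one_iff (N := δ.range) _).2 ⟨x, rfl⟩]; exact K.one_mem
  have b' : Function.Bijective f' := ⟨(injective_iff_map_eq_one _).2 fun a e => by
    obtain ⟨x, hx⟩ := kD a (by rw [show a.1.1.2 = 1 from e, map_one])
    have : (δ x).1.2 = 1 := by rw [hx]; exact e
    obtain rfl : x = 1 := Subtype.ext (congrArg Subtype.val this :)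
    exact Subtype.ext (by rw [← hx, map_one]; rfl), fun h' => by
    obtain ⟨x, hx, e⟩ := k2 _ (F'.mem h')
    obtain ⟨a, rfl⟩ := QuotientGroup.mk_surjective x
    have m : (a.1.2⁻¹ * h').1 ∈ Q' := (F'.ker _).1 (by rw [map_mul, map_inv, ← e]; exact inv_mul_cancel _)
    exact ⟨⟨a, hx⟩ * ⟨_, dK ⟨_, m⟩⟩, mul_inv_cancel_left _ _⟩⟩
  have b : Function.Bijective f := (Nat.bijective_iff_injective_and_card _).2 ⟨(injective_iff_map_eq_one _).2 fun a e => by
    obtain ⟨x, hx⟩ := kD a (by rw [← mm _ a.1.2, show a.1.1.1 = 1 from e, map_one])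
    have : (δ x).1.1 = 1 := by rw [hx]; exact e
    obtain rfl : x = 1 := θ.map_eq_one_iff.1 (Subtype.ext (congrArg Subtype.val this :))
    exact Subtype.ext (by rw [← hx, map_one]; rfl), by
    rw [Nat.card_eq_of_bijective _ b', F.cardH, F'.cardH]⟩
  refine ⟨(MulEquiv.ofBijective f' b').symm.trans (.ofBijective f b), fun h => ?_, fun h hh => ?_⟩
  · obtain ⟨a, rfl⟩ := (MulEquiv.ofBijective f' b').surjective h
    rw [MulEquiv.trans_apply, MulEquiv.symm_apply_apply]; exact mm _ a.1.2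
  · rw [show h = MulEquiv.ofBijective f' b' ⟨_, dK ⟨h, hh⟩⟩ from rfl, MulEquiv.trans_apply, MulEquiv.symm_apply_apply]
    exact hθ ⟨h, hh⟩

end Fr

end Cfsg.Agent.SuzA
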