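import Cfsg.Agent.SuzR.A2

/-! `Loc z' z f`: `f` is an isomorphism `C(z') → C(z)`. `exists_loc`: for two groups of Suzuki sporadic type there is such
an `f` and an involution `v` acting on `C(z, s)` like a given element `v'` of `Q'_{s'}` (helper24). -/

set_option autoImplicit false
set_option linter.unusedSectionVars false

namespace Cfsg.Agent.SuzA

open Cfsg.Agent.Geom Cfsg.Agent.Geom.Formed Subgroup Cfsg.Agent.BG Cfsg.Agent.LES Cfsg.Agent.PGrp Module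

variable {G G' : Type*} [Group G] [Finite G] [Group G'] [Finite G'] {z s : G} {z' s' : G'} {Q P : Subgroup G}
  {Q' P' : Subgroup G'} {p : G → W} {p' : G' → W} {μ : C1[z] →* O6} {μ' : C1[z'] →* O6}

theorem mapP1 (F : Fr z Q p μ) (F' : Fr z' Q' p' μ') (φ : C1[z'] ≃* C1[z]) (h1 : ∀ h, μ (φ h) = μ' h)
    (h2 : ∀ h : C1[z'], h.1 ∈ Q' → p (φ h) = p' h) (h : Pair Q P z s) (h' : Pair Q' P' z' s') (hu : p s = e1)
    (hu' : p' s' = e1) (es : (φ ⟨s', F'.Q_le h'.sQ⟩).1 = s) (ez : (φ ⟨z', cent1_self z'⟩).1 = z) {y' : C1[z']}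
    (hy : y'.1 ∈ P') : (φ y').1 ∈ P := by
  have key : ∀ (y' : C1[z']) (b : W), y'.1 ∈ P' → B e1 b = 0 → S b = 1 → μ' y' = eich S e1 b → (φ y').1 ∈ P :=
    fun y' b hy b1 b2 e => by
    obtain ⟨y, y1, y2⟩ := F.onto h hu b1
    have c : ∀ x ∈ Q, Commute x s → Commute x (y.1⁻¹ * (φ y').1) := fun x hx c => by
      obtain ⟨x', e2⟩ := φ.surjective ⟨x, F.Q_le hx⟩
      have hx' : x'.1 ∈ Q' := (F'.ker _).1 (by rw [← h1, e2]; exact (F.ker _).2 hx)
      obtain rfl : (φ x').1 = x := congrArg Subtype.val e2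
      have c' : Commute x'.1 s' := by rw [← F'.cu h' hu' hx', ← h2 _ hx', F.cu h hu hx]; exact c
      have k : (φ y').1 * (φ x').1 * (φ y').1⁻¹ = (φ x').1 ∨ (φ y').1 * (φ x').1 * (φ y').1⁻¹ = (φ x').1 * (s * z) := by
        refine (F'.L2 h' hu' hy b1 b2 e _ hx' c').imp (fun k => ?_) fun k => ?_
        · simpa using congrArg (fun a => (φ a).1) (Subtype.ext k : y' * x' * y'⁻¹ = x')
        · have := congrArg (fun a => (φ a).1)
            (Subtype.ext k : y' * x' * y'⁻¹ = x' * (⟨s', F'.Q_le h'.sQ⟩ * ⟨z', cent1_self z'⟩))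
          simpa only [map_mul, map_inv, coe_mul, coe_inv, es, ez] using this
      have k2 : p ((φ y').1 * (φ x').1 * (φ y').1⁻¹) = p (y.1 * (φ x').1 * y.1⁻¹) := by
        rw [F.act _ _ hx, F.act _ _ hx, h1, e, y2]
      have k3 : p ((φ x').1 * (s * z)) ≠ p (φ x').1 := by
        rw [F.add hx (Q.mul_mem h.sQ F.es.zQ), F.pmz h.sQ, hu]; simpa using e1_ne
      have k4 : (φ y').1 * (φ x').1 * (φ y').1⁻¹ = y.1 * (φ x').1 * y.1⁻¹ := by
        rcases k with k | k <;> rcases F.L2 h hu y1 b1 b2 y2 _ hx c with f | f <;> rw [k, f] at k2 ⊢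
        exacts [absurd k2.symm k3, absurd k2 k3]
      refine (cj_eq_iff_comm.1 ?_).symm
      rw [show y.1⁻¹ * (φ y').1 * (φ x').1 * (y.1⁻¹ * (φ y').1)⁻¹ = y.1⁻¹ * ((φ y').1 * (φ x').1 * (φ y').1⁻¹) * y.1 by group,
        k4]; group
    rw [← P.mul_mem_cancel_left (P.inv_mem y1)]
    rcases h.hQ.cent_A h.sQ h.hP.toES.zz h.hP.toES.z1 h.ne c with f | f | f | f <;> rw [f]
    exacts [P.one_mem, h.zP, h.hP.zQ, P.mul_mem h.hP.zQ h.zP]
  obtain ⟨a, a1, a2⟩ := F'.ex_b h' hu' hy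
  rcases z2 (S a) with a3 | a3
  · obtain ⟨d, d1, d2, d3⟩ := (G5 a1).1
    obtain ⟨r, r1, r2⟩ := F'.onto h' hu' d2
    have := P.mul_mem (key r d r1 d2 d1 r2) (key (r⁻¹ * y') (d + a) (P'.mul_mem (P'.inv_mem r1) hy)
      (by rw [B_add, d2, a1, add_zero]) (by rw [S_add, d1, a3, B_comm, d3]; rfl)
      (by rw [map_mul, map_inv, r2, a2, eich_add Se1 d2 a1, ← eich_neg Se1 d2, W_neg]))
    rwa [← coe_mul, ← map_mul, mul_inv_cancel_left] at this
  · exact key y' a hy a1 a3 a2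

/-- `f` is an isomorphism `C(z') → C(z)`. -/
structure Loc (z' : G') (z : G) (f : G' → G) : Prop where
  mul : ∀ {x y}, Commute x z' → Commute y z' → f (x * y) = f x * f y
  cen : ∀ {x}, Commute x z' → Commute (f x) z
  inj : ∀ {x}, Commute x z' → f x = 1 → x = 1
  sur : ∀ {y}, Commute y z → ∃ x, Commute x z' ∧ f x = y
  fz : f z' = z

namespace Loc
variable {f : G' → G} (L : Loc z' z f) {x y : G'}
include L

theorem one : f 1 = 1 := by simpa using L.mul (.one_left z') (.one_left z')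
theorem inv (h : Commute x z') : f x⁻¹ = (f x)⁻¹ :=
  eq_inv_of_mul_eq_one_right (by rw [← L.mul h h.inv_left, mul_inv_cancel, L.one])
theorem cj (h : Commute x z') (k : Commute y z') : f (x * y * x⁻¹) = f x * f y * (f x)⁻¹ := by
  rw [L.mul (h.mul_left k) h.inv_left, L.mul h k, L.inv h]
theorem eq (h : Commute x z') (k : Commute y z') (e : f x = f y) : x = y :=
  inv_mul_eq_one.1 (L.inj (h.inv_left.mul_left k) (by rw [L.mul h.inv_left k, L.inv h, e, inv_mul_cancel]))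
theorem comm (h : Commute x z') (k : Commute y z') : Commute (f x) (f y) ↔ Commute x y :=
  ⟨fun c => L.eq (h.mul_left k) (k.mul_left h) (by rw [L.mul h k, L.mul k h, c.eq]),
    fun c => by rw [Commute, SemiconjBy, ← L.mul h k, ← L.mul k h, c.eq]⟩
theorem pow (h : Commute x z') (n : ℕ) : f (x ^ n) = f x ^ n := by
  induction n with
  | zero => simp [L.one]
  | succ n ih => rw [pow_succ, L.mul (h.pow_left n) h, ih, pow_succ]

/-- the swapping element. -/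
theorem swapper (h : Pair Q P z (f s')) (h' : Pair Q' P' z' s') (hP : ∀ y ∈ P', Commute y z' → f y ∈ P)
    (hP' : ∀ y, Commute y z' → f y ∈ P → y ∈ P') {v' : G'} (hv : v' ∈ P') (vz : v' * z' * v'⁻¹ = z' * s') {T : Set G'}
    (hT : C1[z'] ⊓ C1[s'] = closure T) (h3 : ∀ t ∈ T, t * t * t = 1) :
    ∃ v, v * v = 1 ∧ v * z * v⁻¹ = z * f s' ∧ ∀ m, Commute m z' → Commute m s' → v * f m * v⁻¹ = f (v' * m * v'⁻¹) := by
  set s := f s' with hs
  have E := h.hP.toES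
  have E' := h'.hP.toES
  have vs' : Commute v' s' := E'.zc _ hv
  have nz' : ¬ Commute v' z' := E'.not_comm_of vz
  have cz : ∀ {m}, Commute m z' → Commute m s' → Commute (v' * m * v'⁻¹) z' := fun {m} a b => by
    have e : v'⁻¹ * z' * v' = z' * s' := by
      rw [← E'.conj_of_not (P'.inv_mem hv) h'.zP fun c => nz' (by simpa using c.inv_left), inv_inv]
    refine cj_eq_iff_comm.1 ?_
    rw [show v' * m * v'⁻¹ * z' * (v' * m * v'⁻¹)⁻¹ = v' * (m * (v'⁻¹ * z' * v') * m⁻¹) * v'⁻¹ by group, e,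
      cj_eq_iff_comm.2 (a.mul_right b), ← e]; group
  have cs : ∀ {m}, Commute m s' → Commute (v' * m * v'⁻¹) s' := fun b => (vs'.mul_left b).mul_left vs'.inv_left
  let A : Subgroup G :=
    { carrier := {a | ∃ y ∈ P', Commute y z' ∧ Commute v' y ∧ f y = a}
      one_mem' := ⟨1, P'.one_mem, .one_left _, .one_right _, L.one⟩
      mul_mem' := by
        rintro _ _ ⟨a, a1, a2, a3, rfl⟩ ⟨b, b1, b2, b3, rfl⟩
        exact ⟨a * b, P'.mul_mem a1 b1, a2.mul_left b2, a3.mul_right b3, L.mul a2 b2⟩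
      inv_mem' := by
        rintro _ ⟨a, a1, a2, a3, rfl⟩
        exact ⟨a⁻¹, P'.inv_mem a1, a2.inv_left, a3.inv_right, L.inv a2⟩ }
  have hA : A ≤ P := by rintro _ ⟨a, a1, a2, -, rfl⟩; exact hP a a1 a2
  obtain ⟨w, ⟨w1, w2⟩, w3⟩ : ∃ w ∈ P ⊓ C[A], ¬ Commute w z := by
    by_contra! H
    have : z ∈ A := E.dperp hA ⟨s', E'.zQ, h'.sz, vs', rfl⟩ ▸ ⟨h.zP, fun w hw => (H w hw).eq⟩
    obtain ⟨y, -, y2, y3, y4⟩ := this
    exact nz' (L.eq y2 (.refl _) (y4.trans L.fz.symm) ▸ y3)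
  have wz := E.conj_of_not w1 h.zP w3
  have wA : ∀ a ∈ P', Commute a z' → w * f a * w⁻¹ = f (v' * a * v'⁻¹) := fun a a1 a2 => by
    by_cases c : Commute v' a
    · rw [cj_eq_iff_comm.2 c]
      exact cj_eq_iff_comm.2 (Commute.symm (w2 _ ⟨a, a1, a2, c, rfl⟩))
    · have c2 : Commute w (f (a * z')) := Commute.symm (w2 _ ⟨_, P'.mul_mem a1 h'.zP, a2.mul_left (.refl _),
        (E'.mul_comm_of a1 h'.zP hv (fun k => c k.symm) fun k => nz' k.symm).symm, rfl⟩)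
      rw [L.mul a2 (.refl _), L.fz] at c2
      rw [E'.conj_of_not hv a1 c, L.mul a2 h'.sz, E.conj_of_not w1 (hP a a1 a2) fun k => w3 ?_]
      simpa using k.inv_right.mul_right c2
  have ws : Commute w s := E.zc _ w1
  have wM : ∀ m, Commute m z' → Commute m s' → w * f m * w⁻¹ = f (v' * m * v'⁻¹) := by
    have W : ∀ m, Commute m z' → Commute m s' → ∃ c, c * c = 1 ∧ (∀ k, Commute k z' → Commute k s' → Commute (f k) c) ∧
        w * f m * w⁻¹ = f (v' * m * v'⁻¹) * c := fun m m1 m2 => by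
      have c := h.hP.cent_A (x := (f (v' * m * v'⁻¹))⁻¹ * (w * f m * w⁻¹)) h.zP h.hQ.toES.zz h.hQ.toES.z1 h.ne.symm
        fun a a1 a2 => by
        obtain ⟨b, b1, rfl⟩ := L.sur a2
        have b2 := hP' b b1 a1
        have b3 : v'⁻¹ * b * v'⁻¹⁻¹ ∈ P' := P'.mul_mem (P'.mul_mem (P'.inv_mem hv) b2) (P'.inv_mem (P'.inv_mem hv))
        have b4 : Commute (v'⁻¹ * b * v'⁻¹⁻¹) z' := by
          rcases E'.comm _ (P'.inv_mem hv) _ b2 with e | e <;> rw [e]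
          exacts [b1, b1.mul_left h'.sz]
        have e1 := wA _ b3 b4
        have e2 := wA _ (h'.hP.conj_mem m2 b3) ((m1.mul_left b4).mul_left m1.inv_left)
        rw [show v' * (v'⁻¹ * b * v'⁻¹⁻¹) * v'⁻¹ = b by group] at e1
        rw [L.cj m1 b4, show v' * (m * (v'⁻¹ * b * v'⁻¹⁻¹) * m⁻¹) * v'⁻¹ = v' * m * v'⁻¹ * b * (v' * m * v'⁻¹)⁻¹ by group,
          L.cj (cz m1 m2) b1, ← e1] at e2
        refine (cj_eq_iff_comm.1 ?_).symm
        rw [← e1]
        generalize f (v' * m * v'⁻¹) = n at *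
        generalize f (v'⁻¹ * b * v'⁻¹⁻¹) = t at *
        calc _ = n⁻¹ * (w * (f m * t * (f m)⁻¹) * w⁻¹) * n := by group
          _ = _ := by rw [e2]; group
      refine ⟨_, ?_, fun k k1 k2 => ?_, (mul_inv_cancel_left _ _).symm⟩ <;> rcases c with e | e | e | e <;> rw [e]
      exacts [mul_one _, E.zz, h.hQ.toES.zz, by rw [h.sz.mul_mul_mul_comm, E.zz, h.hQ.toES.zz, mul_one], .one_right _,
        (L.comm k1 h'.sz).2 k2, L.cen k1, (L.cen k1).mul_right ((L.comm k1 h'.sz).2 k2)]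
    intro m m1 m2
    have hm : m ∈ closure T := hT ▸ ⟨mem_cent1.2 m1, mem_cent1.2 m2⟩
    have mem : ∀ k ∈ closure T, Commute k z' ∧ Commute k s' := fun k hk => by
      rw [← hT] at hk; exact ⟨mem_cent1.1 hk.1, mem_cent1.1 hk.2⟩
    clear m1 m2
    induction hm using closure_induction with
    | mem t ht =>
      obtain ⟨t1, t2⟩ := mem t (subset_closure ht)
      obtain ⟨c, c1, c2, e⟩ := W t t1 t2
      have c3 := c2 _ (cz t1 t2) (cs t2)
      have : (w * f t * w⁻¹) ^ 3 = f (v' * t * v'⁻¹) ^ 3 := by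
        rw [conj_pow, ← L.pow t1, ← L.pow (cz t1 t2), conj_pow, pow_three', h3 t ht]; simp [L.one]
      rw [e, c3.mul_pow, mul_eq_left, pow_three', c1, one_mul] at this
      rw [e, this, mul_one]
    | one => simp [L.one]
    | mul a b ha hb e1 e2 =>
      rw [L.mul (mem a ha).1 (mem b hb).1, ← conj_mul, e1, e2, ← L.mul (cz (mem a ha).1 (mem a ha).2)
        (cz (mem b hb).1 (mem b hb).2), conj_mul]
    | inv a ha e => rw [L.inv (mem a ha).1, ← conj_inv, e, ← L.inv (cz (mem a ha).1 (mem a ha).2), conj_inv]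
  rcases E.sq w w1 with e | e
  · exact ⟨w, e, wz, wM⟩
  · refine ⟨w * z, ?_, by rw [← wz]; group, fun m m1 m2 => ?_⟩
    · have : z * w = s * w * z := by
        rw [← mul_inv_eq_iff_eq_mul, inv_eq_of_mul_eq_one_right h.hQ.toES.zz, ← mul_inv_eq_iff_eq_mul, ← mul_left_cancel_iff (a := z),
          ← mul_assoc, ← mul_assoc, ← mul_assoc, h.hQ.toES.zz, one_mul, wz]
      rw [mul_assoc, ← mul_assoc z, this, mul_assoc, h.hQ.toES.zz, mul_one, ← mul_assoc, ws.eq, mul_assoc, e, E.zz]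
    · rw [← wM m m1 m2, show w * z * f m * (w * z)⁻¹ = w * (z * f m * z⁻¹) * w⁻¹ by group,
        cj_eq_iff_comm.2 (L.cen m1).symm]

theorem braid (h : Pair Q P z (f s')) (sz : Commute s' z') {v' q' : G'} {v : G} (vv : v * v = 1)
    (vz : v * z * v⁻¹ = z * f s') (vM : ∀ m, Commute m z' → Commute m s' → v * f m * v⁻¹ = f (v' * m * v'⁻¹))
    (cv : ∀ m, Commute m z' → Commute m s' → Commute (v' * m * v'⁻¹) z' ∧ Commute (v' * m * v'⁻¹) s')
    (cq : ∀ m, Commute m z' → Commute m s' → Commute (q' * m * q'⁻¹) s')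
    (qz : Commute q' z') (qq : q' * q' = 1) (qs : q' * s' * q'⁻¹ = s' * z') (b : (q' * v') ^ 3 = 1) :
    f q' * v * f q' = v * f q' * v := by
  have k : ∀ n : ℕ, ∀ m, Commute m z' → Commute m s' → (Commute ((q' * v') ^ n * m * ((q' * v') ^ n)⁻¹) z' ∧
      Commute ((q' * v') ^ n * m * ((q' * v') ^ n)⁻¹) s') ∧
      (f q' * v) ^ n * f m * ((f q' * v) ^ n)⁻¹ = f ((q' * v') ^ n * m * ((q' * v') ^ n)⁻¹) := fun n m m1 m2 => by
    induction n with
    | zero => simp [m1, m2]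
    | succ n ih =>
      obtain ⟨⟨a, b⟩, c⟩ := ih
      have e : ∀ {H : Type _} [Group H] (x y t : H), (x * y) ^ (n + 1) * t * ((x * y) ^ (n + 1))⁻¹ =
        x * (y * ((x * y) ^ n * t * ((x * y) ^ n)⁻¹) * y⁻¹) * x⁻¹ := fun x y t => by
          rw [pow_succ']; simp only [mul_assoc, mul_inv_rev]
      have e' : ∀ {H : Type _} [Group H] (x y t : H), (x * y) ^ (n + 1) * t * ((x * y) ^ (n + 1))⁻¹ =
        x * (y * ((x * y) ^ n * t * ((x * y) ^ n)⁻¹) * y⁻¹) * x⁻¹ := fun x y t => by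
          rw [pow_succ']; simp only [mul_assoc, mul_inv_rev]
      obtain ⟨a', b'⟩ := cv _ a b
      rw [e, e', c, vM _ a b, L.cj qz a']
      exact ⟨⟨(qz.mul_left a').mul_left qz.inv_left, cq _ a' b'⟩, rfl⟩
  have c := h.hQ.cent_A (x := (f q' * v) ^ 3) h.sQ h.hP.toES.zz h.hP.toES.z1 h.ne fun x hx c => by
    obtain ⟨m, m1, rfl⟩ := L.sur (h.hQ.zc x hx)
    have := (k 3 m m1 ((L.comm m1 sz).1 c)).2
    rw [b, inv_one, one_mul, mul_one] at this
    exact (cj_eq_iff_comm.1 this).symm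
  have q2 : f q' * f q' = 1 := by rw [← L.mul qz qz, qq, L.one]
  have q3 : f q' * f s' * (f q')⁻¹ = f s' * z := by rw [← L.cj qz sz, qs, L.mul sz (.refl _), L.fz]
  have qz' := L.cen qz
  have zz := h.hQ.toES.zz
  have ss := h.hP.toES.zz
  generalize f q' = q at *
  have iq := inv_eq_of_mul_eq_one_right q2
  have iv := inv_eq_of_mul_eq_one_right vv
  have a1 : q * (q * v) ^ 3 * q⁻¹ = ((q * v) ^ 3)⁻¹ := by
    rw [← conj_pow, ← inv_pow, mul_inv_rev, iq, iv, ← mul_assoc, q2, one_mul]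
  have a2 : v * (q * v) ^ 3 * v⁻¹ = ((q * v) ^ 3)⁻¹ := by
    rw [← conj_pow, ← inv_pow, mul_inv_rev, iq, ← mul_assoc, mul_inv_cancel_right, iv]
  rcases c with e | e | e | e <;> rw [e] at a1 a2
  · rw [← mul_inv_eq_one, mul_inv_rev, mul_inv_rev, iq, iv, ← e, pow_three']; simp only [mul_assoc]
  · rw [vz, inv_eq_of_mul_eq_one_right zz, mul_eq_left] at a2; exact absurd a2 h.hP.toES.z1
  · rw [q3, inv_eq_of_mul_eq_one_right ss, mul_eq_left] at a1; exact absurd a1 h.hQ.toES.z1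
  · rw [← conj_mul, q3, cj_eq_iff_comm.2 qz', mul_assoc, zz, mul_one, mul_inv_rev, inv_eq_of_mul_eq_one_right ss,
      inv_eq_of_mul_eq_one_right zz, eq_comm, mul_eq_right] at a1
    exact absurd a1 h.hQ.toES.z1

end Loc

theorem exists_loc (h : LE Q z) (hQ : #Q = 2 ^ 7) (hc : #C1[z] = 2 ^ 7 * 25920) (hf : ∃ u ∈ Q, IsConj z u ∧ u ≠ z)
    (h' : Pair Q' P' z' s') (hQ' : #Q' = 2 ^ 7) (hc' : #C1[z'] = 2 ^ 7 * 25920) :
    ∃ f P, Loc z' z f ∧ Pair Q P z (f s') ∧ (∀ y ∈ P', Commute y z' → f y ∈ P) ∧ ∀ y, Commute y z' → f y ∈ P → y ∈ P' := by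
  classical
  obtain ⟨p, μ, F⟩ := exists_Fr h hQ hc
  obtain ⟨p', μ', F'⟩ := exists_Fr h'.hQ hQ' hc'
  obtain ⟨g', e', -⟩ := h'.tr
  obtain ⟨φ, h1, h2⟩ := F.iso F' hf ⟨s', h'.sQ, isConj_iff.2 ⟨g', e'⟩, h'.ne⟩
  have mQ : ∀ x : C1[z'], x.1 ∈ Q' ↔ (φ x).1 ∈ Q := fun x => by rw [← F.ker, ← F'.ker, h1]
  have ez : (φ ⟨z', cent1_self z'⟩).1 = z := ((F.p0 ((mQ _).1 F'.es.zQ)).1 ((h2 _ F'.es.zQ).trans F'.pz)).resolve_left
    fun e => F'.es.z1 (congrArg Subtype.val (φ.map_eq_one_iff.1 (Subtype.ext e)))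
  have s0 : p' s' ≠ 0 := by rw [Ne, F'.p0 h'.sQ, not_or]; exact ⟨h'.hP.toES.z1, h'.ne⟩
  have s1 := (F'.sq h'.sQ).2 h'.hP.toES.zz
  have hs := (mQ ⟨s', F'.Q_le h'.sQ⟩).1 h'.sQ
  have ps := h2 ⟨s', F'.Q_le h'.sQ⟩ h'.sQ
  obtain ⟨g, hg⟩ := isConj_iff.1 (F.fused hf hs (ps ▸ s1) (ps ▸ s0))
  have hp := h.pair (g := g) (by rw [hQ]; decide) (hg ▸ hs) (by rw [hg]; exact fun e => s0 (by rw [← ps, e, F.pz]))
  rw [hg] at hp
  obtain ⟨σ, -, hσ⟩ := exists_move s1 s0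
  let f : G' → G := fun x => if hx : x ∈ C1[z'] then (φ ⟨x, hx⟩).1 else 1
  have hf : ∀ x : C1[z'], f x = φ x := fun x => dif_pos x.2
  have hf' : ∀ {x} (hx : Commute x z'), f x = φ ⟨x, mem_cent1.2 hx⟩ := fun hx => hf ⟨_, mem_cent1.2 hx⟩
  refine ⟨f, cj g Q, ⟨fun a b => ?_, fun a => ?_, fun a e => ?_, fun a => ?_, (hf' (.refl _)).trans ez⟩,
    hf' h'.sz ▸ hp, fun y a b => ?_, fun y a b => ?_⟩
  · rw [hf' a, hf' b, hf' (a.mul_left b), ← coe_mul, ← map_mul]; rfl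
  · rw [hf' a]; exact mem_cent1.1 (φ _).2
  · rw [hf' a] at e; exact congrArg Subtype.val (φ.map_eq_one_iff.1 (Subtype.ext e))
  · obtain ⟨x, e⟩ := φ.surjective ⟨_, mem_cent1.2 a⟩
    exact ⟨x, mem_cent1.1 x.2, (hf x).trans (congrArg Subtype.val e)⟩
  · rw [hf' b]
    exact mapP1 (F.twist σ) (F'.twist σ) φ (fun h => congrArg (MulAut.conj σ) (h1 h)) (fun h k => congrArg σ.1 (h2 h k)) hp h'
      ((congrArg σ.1 ps).trans hσ) hσ rfl ez a
  · rw [hf' a] at b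
    have := mapP1 (F'.twist σ) (F.twist σ) φ.symm (fun h => congrArg (MulAut.conj σ) (by rw [← h1, φ.apply_symm_apply]))
      (fun h k => congrArg σ.1 (by
        obtain ⟨h, rfl⟩ := φ.surjective h
        rw [φ.symm_apply_apply, h2 h ((mQ h).2 k)])) h' hp hσ ((congrArg σ.1 ps).trans hσ)
      (congrArg Subtype.val (φ.symm_apply_apply _))
      (congrArg Subtype.val (φ.symm_apply_eq.2 (Subtype.ext ez.symm) : _ = (⟨z', cent1_self z'⟩ : C1[z']))) b
    rwa [φ.symm_apply_apply] at this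

end Cfsg.Agent.SuzA
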