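import Cfsg.Agent.Known.Out
import Cfsg.Agent.Known.FiGrp
import Cfsg.Agent.Comp.Loc

/-! Backtrack counting in a model `Known.Mdl` (helper20). `Mdl.bt_le`: a set of elements whose images of some points and
conjugates of some words lie in explicit lists has at most `btr` elements (sifting through an exact stabiliser chain).
`Mdl.orb_step`, `Mdl.card_step` (orbit–stabiliser), `Mdl.fix_step`, `Mdl.le_card_sub`, `Mdl.equiv_of_le`. -/

set_option autoImplicit false

namespace Cfsg.Agent.SuzR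

open Cfsg.Agent.Comp Cfsg.Agent.Known Subgroup Equiv MulAction Cfsg.Agent.Known.Mdl

/-- a stage: level of the chain, kind (`1` conjugate of the word `src`, `2` image of the point `src`), candidates, the
base point of the level is the word `v` in the slots applied to the slot `k`. -/
structure Sg where
  L : Lv
  kd : ℕ
  src : ℕ
  cl : List ℕ
  v : List ℕ
  k : ℕ

def lvs (Ss : List Sg) (Fs : List Lv) : List Lv := List.rec (motive := fun _ => List Lv) Fs (fun s _ ih => s.L :: ih) Ss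

def sumL (f : ℕ → ℕ) (l : List ℕ) : ℕ → ℕ :=
  List.rec (motive := fun _ => ℕ → ℕ) (fun a => a) (fun c _ ih a => force (Nat.add a (f c)) ih) l

theorem sumL_eq (f : ℕ → ℕ) (l : List ℕ) : ∀ a, sumL f l a = a + (l.map f).sum := by
  induction l with
  | nil => intro a; rfl
  | cons c l ih =>
    intro a
    have : sumL f (c :: l) a = force (Nat.add a (f c)) (sumL f l) := rfl
    rw [this, force_eq, ih, List.map_cons, List.sum_cons, ← add_assoc]; rfl

def descN (act : ℕ → ℕ → ℕ) (b : ℕ) (nxt : ℕ → List ℕ) (k : List (List ℕ) → ℕ) (big fuel : ℕ) :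
    ℕ → List (List ℕ) → ℕ :=
  Nat.rec (motive := fun _ => ℕ → List (List ℕ) → ℕ) (fun _ _ => big)
    (fun _ ih z acc => bif' (Nat.beq z b) (k acc)
      ((fun w => force (actW act w z) fun z' => ih z' (w :: acc)) (nxt z))) fuel

def evS (act : ℕ → ℕ → ℕ) (ew : List (List ℕ)) (vals : ℕ → ℕ) (v : List ℕ) (k : ℕ) : ℕ :=
  actW (fun t => actW act (nthL [] ew (vals t))) v (vals k)

def inT (L : Lv) (z : ℕ) : Bool := force (L.pos z) fun i => band (Nat.blt i L.n) (Nat.beq (L.pt i) z)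

def btr (act : ℕ → ℕ → ℕ) (ew : List (List ℕ)) (big fuel r : ℕ) (Ss : List Sg) : List ℕ → List (List ℕ) → ℕ :=
  List.rec (motive := fun _ => List ℕ → List (List ℕ) → ℕ) (fun _ _ => r)
    (fun s _ ih σ acc => sumL (fun c => force (actWW act acc (evS act ew (nthL 0 (c :: σ)) s.v s.k)) fun z =>
      bif' (inT s.L z) (descN act s.L.b s.L.nxt (ih (c :: σ)) big fuel z acc) 0) s.cl 0) Ss

def stat (act : ℕ → ℕ → ℕ) (ew : List (List ℕ)) (N : ℕ) (Ss : List Sg) : List (ℕ × ℕ) → Bool :=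
  List.rec (motive := fun _ => List (ℕ × ℕ) → Bool) (fun _ => true)
    (fun s _ ih τ => (fun f : ℕ → ℕ × ℕ => band (band (allL s.v fun t => Nat.beq (f t).1 1)
      (band (Nat.beq (f s.k).1 2) (Nat.blt (f s.k).2 N)))
      (band (Nat.beq (evS act ew (fun t => (f t).2) s.v s.k) s.L.b) (ih ((s.kd, s.src) :: τ))))
      (nthL (0, 0) ((s.kd, s.src) :: τ))) Ss

section
variable {Γ : Type*} [Group Γ] (φ : Γ →* Perm ℕ) (y : ℕ → Γ) (ew : List (List ℕ))

/-- meaning of a slot. -/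
def Mean (g : Γ) (s : ℕ × ℕ) (c : ℕ) : Prop :=
  (s.1 = 1 → g * W y (nthL [] ew s.2) = W y (nthL [] ew c) * g) ∧ (s.1 = 2 → φ g s.2 = c)

variable {φ y ew}

theorem Mean.zero (g : Γ) (a : ℕ) : ∃ c ∈ [0], Mean φ y ew g (0, a) c :=
  ⟨0, List.mem_cons_self, fun h => absurd h (by simp), fun h => absurd h (by simp)⟩

theorem Mean.pt {g : Γ} {a : ℕ} {l : List ℕ} (h : φ g a ∈ l) : ∃ c ∈ l, Mean φ y ew g (2, a) c :=
  ⟨_, h, fun h => absurd h (by simp), fun _ => rfl⟩

theorem Mean.cj {g : Γ} {a : ℕ} {l : List ℕ} (h : ∃ c ∈ l, g * W y (nthL [] ew a) * g⁻¹ = W y (nthL [] ew c)) :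
    ∃ c ∈ l, Mean φ y ew g (1, a) c :=
  let ⟨c, hc, e⟩ := h
  ⟨c, hc, fun _ => mul_inv_eq_iff_eq_mul.1 e, fun h => absurd h (by simp)⟩

theorem ncard_le_sum {α : Type*} [Finite α] {S : Set α} {P : ℕ → Set α} {f : ℕ → ℕ} (l : List ℕ) :
    (∀ g ∈ S, ∃ c ∈ l, g ∈ P c) → (∀ c ∈ l, (P c).ncard ≤ f c) → S.ncard ≤ (l.map f).sum := by
  induction l generalizing S with
  | nil =>
    intro h _
    rw [Set.eq_empty_of_forall_notMem (s := S) fun g hg => by simpa using h g hg]; simp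
  | cons c l ih =>
    intro h h'
    have h1 : S ⊆ P c ∪ (S \ P c) := fun g hg => by by_cases e : g ∈ P c <;> simp [e, hg]
    refine (Set.ncard_le_ncard h1 (Set.toFinite _)).trans ((Set.ncard_union_le _ _).trans ?_)
    rw [List.map_cons, List.sum_cons]
    refine add_le_add (h' c List.mem_cons_self) (ih (fun g hg => ?_) fun d hd => h' d (List.mem_cons_of_mem _ hd))
    obtain ⟨d, hd, e⟩ := h g hg.1
    rcases List.mem_cons.1 hd with rfl | hd
    · exact absurd e hg.2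
    · exact ⟨d, hd, e⟩

theorem mem_fixB {B : List ℕ} {g : Γ} : g ∈ fixB φ B ↔ ∀ b ∈ B, φ g b = b := Iff.rfl

theorem card_step (K : Subgroup Γ) [Finite K] (b : ℕ) {m : ℕ} (l : List ℕ) (h : ∀ g ∈ K, φ g b ∈ l)
    (hm : Nat.card ↥(K ⊓ fixB φ [b]) ≤ m) : Nat.card K ≤ l.length * m := by
  letI := actOf φ
  have e : K ⊓ stabilizer Γ b = K ⊓ fixB φ [b] := by
    congr 1; ext g; simp [mem_fixB]; rfl
  rw [card_eq_ncard_orbit_mul K b, e]
  refine Nat.mul_le_mul ?_ hm
  refine (Set.ncard_le_ncard (t := (l.toFinset : Set ℕ)) ?_ (Set.toFinite _)).trans ?_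
  · rintro _ ⟨g, rfl⟩; exact Finset.mem_coe.2 (List.mem_toFinset.2 (h g g.2))
  · rw [Set.ncard_coe_finset]; exact List.toFinset_card_le l

end

variable {Γ : Type*} [Group Γ] {φ : Γ →* Perm ℕ} {N k n : ℕ} {y : ℕ → Γ} {act : ℕ → ℕ → ℕ} {B₀ : List ℕ}
  (M : Mdl φ N k n y act B₀)
include M

theorem descN_sound {b : ℕ} {nxt : ℕ → List ℕ} {κ : List (List ℕ) → ℕ} {big : ℕ} (K : Subgroup Γ)
    (hK : ∀ z, W y (nxt z) ∈ K) (fuel : ℕ) : ∀ z acc, z < N → descN act b nxt κ big fuel z acc = big ∨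
      ∃ u ∈ K, ∃ acc', WW y acc' = u * WW y acc ∧ φ u z = b ∧ descN act b nxt κ big fuel z acc = κ acc' := by
  induction fuel with
  | zero => intro z acc _; exact Or.inl rfl
  | succ fuel ih =>
    intro z acc hz
    have e : descN act b nxt κ big (fuel + 1) z acc = bif' (Nat.beq z b) (κ acc)
      (force (actW act (nxt z) z) fun z' => descN act b nxt κ big fuel z' (nxt z :: acc)) := rfl
    rw [e, bif'_eq, force_eq]
    split_ifs with hb
    · exact Or.inr ⟨1, K.one_mem, acc, (one_mul _).symm, by rw [map_one]; exact nbeq.1 hb, rfl⟩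
    · rw [← M.applyW _ hz]
      refine (ih _ _ (M.lt _ hz)).imp_right fun ⟨u, hu, acc', h1, h2, h3⟩ =>
        ⟨u * W y (nxt z), K.mul_mem hu (hK z), acc', ?_, by rw [map_mul, Perm.mul_apply, h2], h3⟩
      rw [h1, mul_assoc]; simp [WW]

theorem chn_step {B : List ℕ} {L : Lv} {Ls : List Lv} (H : Chn act N B (L :: Ls)) (hB : ∀ c ∈ B, c < N)
    (hc : Nat.card (fixB φ B) ≤ prodN (L :: Ls)) : Nat.card (fixB φ (L.b :: B)) ≤ prodN Ls ∧
      ∀ g ∈ fixB φ B, inT L (φ g L.b) = true := by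
  letI := actOf φ
  haveI := M.finite
  cases H with
  | cons h1 h2 =>
    have hB' : ∀ c ∈ L.b :: B, c < N := List.forall_mem_cons.2 ⟨(lv_lt h1).1, hB⟩
    obtain ⟨p0, p1⟩ := M.chn_le h2 hB'
    obtain ⟨q0, q1⟩ := M.lv_le hB h1
    have q2 := q0 ▸ Set.ncard_le_ncard q1 (Set.finite_range _)
    rw [card_fixB B L.b] at hc
    change _ ≤ L.n * prodN Ls at hc
    have r1 : (orbit (fixB φ B) L.b).ncard ≤ L.n :=
      Nat.le_of_mul_le_mul_right ((Nat.mul_le_mul_left _ p1).trans hc) p0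
    have r3 := Set.eq_of_subset_of_ncard_le q1 (r1.trans q0.ge) (Set.finite_range _)
    refine ⟨Nat.le_of_mul_le_mul_left ((Nat.mul_le_mul_right _ q2).trans hc) (lv_lt h1).2, fun g hg => ?_⟩
    obtain ⟨i, hi, ei⟩ : φ g L.b ∈ L.pt '' Set.Iio L.n := r3 ▸ ⟨⟨_, hg⟩, rfl⟩
    rw [← ei, inT, force_eq, (M.lv_orbit hB h1 i hi).2.1, band_eq, Bool.and_eq_true, nblt, nbeq]
    exact ⟨hi, rfl⟩

theorem evS_spec (ew : List (List ℕ)) (vals : ℕ → ℕ) (v : List ℕ) {p : ℕ} (hp : p < N) :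
    φ (W (fun t => W y (nthL [] ew (vals t))) v) p = actW (fun t => actW act (nthL [] ew (vals t))) v p := by
  induction v with
  | nil => simp [actW]
  | cons t v ih =>
    have e : actW (fun t => actW act (nthL [] ew (vals t))) (t :: v) p =
      force (actW (fun t => actW act (nthL [] ew (vals t))) v p) (actW act (nthL [] ew (vals t))) := rfl
    rw [e, force_eq, W_cons, map_mul, Perm.mul_apply, ← ih, M.applyW _ (M.lt _ hp)]

theorem evS_mean {ew : List (List ℕ)} {g : Γ} {f : ℕ → ℕ × ℕ} {vals : ℕ → ℕ} (h : ∀ t, Mean φ y ew g (f t) (vals t))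
    {v : List ℕ} {j : ℕ} (hv : ∀ t ∈ v, (f t).1 = 1) (hj : (f j).1 = 2) (hN : (f j).2 < N) :
    φ g (evS act ew (fun t => (f t).2) v j) = evS act ew vals v j := by
  have e : g * W (fun t => W y (nthL [] ew (f t).2)) v = W (fun t => W y (nthL [] ew (vals t))) v * g := by
    induction v with
    | nil => simp
    | cons t v ih =>
      rw [W_cons, W_cons, ← mul_assoc, (h t).1 (hv t List.mem_cons_self), mul_assoc,
        ih fun s hs => hv s (List.mem_cons_of_mem _ hs), mul_assoc]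
  have e' := (h j).2 hj
  rw [evS, evS, ← evS_spec M ew _ v hN, ← evS_spec M ew _ v (e' ▸ M.lt g hN), ← Perm.mul_apply, ← map_mul, e, map_mul,
    Perm.mul_apply, e']

theorem bt_sound {ew : List (List ℕ)} {fuel r : ℕ} {S : Set Γ} {Fs : List Lv} (hr : prodN Fs ≤ r) (Ss : List Sg) :
    ∀ {B : List ℕ} (τ : List (ℕ × ℕ)), Chn act N B (lvs Ss Fs) → (∀ c ∈ B, c < N) →
      Nat.card (fixB φ B) ≤ prodN (lvs Ss Fs) → stat act ew N Ss τ = true →
      (∀ s ∈ Ss, ∀ g ∈ S, ∃ c ∈ s.cl, Mean φ y ew g (s.kd, s.src) c) → ∀ σ acc,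
      {g | g ∈ S ∧ List.Forall₂ (Mean φ y ew g) τ σ ∧ WW y acc * g ∈ fixB φ B}.ncard ≤ btr act ew n fuel r Ss σ acc := by
  haveI := M.finite
  induction Ss with
  | nil =>
    intro B τ _ _ hc _ _ σ acc
    refine le_trans ?_ (hc.trans hr)
    rw [← SetLike.coe_sort_coe, Nat.card_coe_set_eq]
    exact Set.ncard_le_ncard_of_injOn (fun g => WW y acc * g) (fun g hg => hg.2.2)
      (fun _ _ _ _ e => mul_left_cancel e) (Set.toFinite _)
  | cons s Ss ih =>
    intro B τ H hB hc hs hS σ acc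
    obtain ⟨c1, c2⟩ := chn_step M H hB hc
    have e0 : stat act ew N (s :: Ss) τ = (fun f : ℕ → ℕ × ℕ => band (band (allL s.v fun t => Nat.beq (f t).1 1)
      (band (Nat.beq (f s.k).1 2) (Nat.blt (f s.k).2 N)))
      (band (Nat.beq (evS act ew (fun t => (f t).2) s.v s.k) s.L.b) (stat act ew N Ss ((s.kd, s.src) :: τ))))
      (nthL (0, 0) ((s.kd, s.src) :: τ)) := rfl
    simp only [e0, band_eq, Bool.and_eq_true, allL_iff, nbeq, nblt] at hs
    obtain ⟨⟨s1, s2, s3⟩, s4, s5⟩ := hs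
    have e1 : btr act ew n fuel r (s :: Ss) σ acc = sumL (fun c =>
      force (actWW act acc (evS act ew (nthL 0 (c :: σ)) s.v s.k)) fun z =>
      bif' (inT s.L z) (descN act s.L.b s.L.nxt (btr act ew n fuel r Ss (c :: σ)) n fuel z acc) 0) s.cl 0 := rfl
    rw [e1, sumL_eq, zero_add]
    cases H with
    | cons h1 h2 =>
    refine ncard_le_sum (P := fun c => {g | g ∈ S ∧ List.Forall₂ (Mean φ y ew g) ((s.kd, s.src) :: τ) (c :: σ) ∧
      WW y acc * g ∈ fixB φ B}) _ (fun g hg => ?_) fun c _ => ?_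
    · obtain ⟨c, hc, e⟩ := hS s List.mem_cons_self g hg.1
      exact ⟨c, hc, hg.1, .cons e hg.2.1, hg.2.2⟩
    have key : ∀ g, List.Forall₂ (Mean φ y ew g) ((s.kd, s.src) :: τ) (c :: σ) →
        φ (WW y acc * g) s.L.b = actWW act acc (evS act ew (nthL 0 (c :: σ)) s.v s.k) := fun g hg => by
      have := evS_mean M (forall₂_nthL (a := (0, 0)) (b := 0)
        ⟨fun h => absurd h (by simp), fun h => absurd h (by simp)⟩ hg) s1 s2 s3
      rw [s4] at this
      rw [map_mul, Perm.mul_apply, ← this, M.applyWW _ (M.lt _ (lv_lt h1).1)]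
    rw [force_eq]
    rcases Set.eq_empty_or_nonempty {g | g ∈ S ∧ List.Forall₂ (Mean φ y ew g) ((s.kd, s.src) :: τ) (c :: σ) ∧
      WW y acc * g ∈ fixB φ B} with e | ⟨g0, hg0⟩
    · rw [e, Set.ncard_empty]; exact Nat.zero_le _
    rw [← key g0 hg0.2.1, c2 _ hg0.2.2, bif'_true]
    rcases descN_sound M (b := s.L.b) (nxt := s.L.nxt) (κ := btr act ew n fuel r Ss (c :: σ)) (big := n) (fixB φ B)
      (fun z => by rw [Lv.nxt, force_eq, force_eq]; exact M.lv_mem hB h1 _) fuel _ acc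
      (M.lt (WW y acc * g0) (lv_lt h1).1) with e | ⟨u, hu, acc', e1, e2, e3⟩
    · rw [e, ← M.card]; exact Set.ncard_le_card _
    rw [e3]
    refine le_trans (Set.ncard_le_ncard (fun g hg => ?_) (Set.toFinite _)) (ih _ h2
      (List.forall_mem_cons.2 ⟨(lv_lt h1).1, hB⟩) c1 s5 (fun t ht => hS t (List.mem_cons_of_mem _ ht)) (c :: σ) acc')
    refine ⟨hg.1, hg.2.1, ?_⟩
    rw [e1, mul_assoc]
    refine List.forall_mem_cons.2 ⟨?_, mul_mem hu hg.2.2⟩
    rw [map_mul, Perm.mul_apply, key g hg.2.1, ← key g0 hg0.2.1, e2]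

/-- backtrack bound for a subgroup of the pointwise stabiliser. -/
theorem bt_le {ew : List (List ℕ)} {fuel m : ℕ} {K : Subgroup Γ} {Fs : List Lv} {Ss : List Sg} {B : List ℕ} {c : ℕ}
    (H : Chn act N B (lvs Ss Fs)) (hc : Nat.card (fixB φ B) ≤ c) (hK : K ≤ fixB φ B)
    (hS : ∀ s ∈ Ss, ∀ g ∈ K, ∃ c ∈ s.cl, Mean φ y ew g (s.kd, s.src) c)
    (h : band (band (allL B fun c => Nat.blt c N) (Nat.ble c (prodN (lvs Ss Fs))))
      (band (stat act ew N Ss []) (force (prodN Fs) fun r => Nat.ble (btr act ew n fuel r Ss [] []) m)) = true) :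
    Nat.card K ≤ m := by
  simp only [band_eq, Bool.and_eq_true, allL_iff, nblt, nble, force_eq] at h
  refine le_trans (le_of_eq ?_) ((bt_sound M (S := K) le_rfl Ss [] H h.1.1 (hc.trans h.1.2) h.2.1 hS [] []).trans h.2.2)
  rw [← SetLike.coe_sort_coe, Nat.card_coe_set_eq]
  congr 1
  ext g
  exact ⟨fun hg => ⟨hg, .nil, by simpa [WW] using hK hg⟩, fun hg => hg.1⟩

/-- orbit–stabiliser with an exact level. -/
theorem orb_step {B : List ℕ} {L : Lv} {Ls : List Lv} (H : Chn act N B (L :: Ls)) {c : ℕ}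
    (hc : Nat.card (fixB φ B) ≤ c) {K : Subgroup Γ} (hK : K ≤ fixB φ B) {l : List ℕ} (hl : ∀ g ∈ K, φ g L.b ∈ l)
    {a m : ℕ} (h : band (band (allL B fun c => Nat.blt c N) (Nat.ble c (prodN (L :: Ls))))
      (Nat.ble (countL (inT L) l) a) = true) (hm : Nat.card ↥(K ⊓ fixB φ [L.b]) ≤ m) : Nat.card K ≤ a * m := by
  haveI := M.finite
  simp only [band_eq, Bool.and_eq_true, allL_iff, nblt, nble, countL_eq] at h
  refine (card_step K L.b (l.filter (inT L)) (fun g hg => List.mem_filter.2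
    ⟨hl g hg, (chn_step M H h.1.1 (hc.trans h.1.2)).2 g (hK hg)⟩) hm).trans (Nat.mul_le_mul_right _ ?_)
  rw [← List.countP_eq_length_filter]; exact h.2

theorem chn_tail {B : List ℕ} {L : Lv} {Ls : List Lv} (H : Chn act N B (L :: Ls)) {c c' : ℕ}
    (hc : Nat.card (fixB φ B) ≤ c) (h : band (band (allL B fun c => Nat.blt c N) (Nat.ble c (prodN (L :: Ls))))
      (Nat.ble (prodN Ls) c') = true) : Nat.card (fixB φ (L.b :: B)) ≤ c' := by
  simp only [band_eq, Bool.and_eq_true, allL_iff, nblt, nble] at h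
  exact (chn_step M H h.1.1 (hc.trans h.1.2)).1.trans h.2

/-- lower bound for the order of a subgroup from a stabiliser chain of words. -/
theorem le_card_sub {K : Subgroup Γ} (ws : List (List ℕ)) (hK : ∀ w ∈ ws, W y w ∈ K) (B' : List ℕ) (fuel : ℕ) {a : ℕ}
    (h : band (allL B' fun b => Nat.blt b N) (Nat.ble a
      (chainL (fun j => actW act (nthL [] ws j)) (fun a => a) fuel B' (List.range (lenL ws)))) = true) :
    a ≤ Nat.card K := by
  letI := actOf φ
  haveI := M.finite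
  rw [band_eq, Bool.and_eq_true, nble] at h
  refine h.2.trans (chainL_le_card (M.hy.words ws) (isCanon_PtN N).func (isCanon_PtN N).canon B' (exists_PtN h.1) _ _
    fun c _ => ⟨_, ?_, rfl⟩)
  rcases nthL_mem_or [] ws c with e | e
  · exact hK _ e
  · beta_reduce; rw [e]; exact one_mem _

/-- the order of a point stabiliser from a lower bound for the orbit. -/
theorem fix_step {B : List ℕ} {c : ℕ} (hc : Nat.card (fixB φ B) ≤ c) (b a c' : ℕ) (ws : List (List ℕ))
    (h : band (band (allL (b :: B) fun c => Nat.blt c N) (allL ws fun w => allL B fun c => Nat.beq (actW act w c) c))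
      (band (band (Nat.blt 0 a) (Nat.ble c (Nat.mul a c'))) (Nat.ble a (lenL (orbitL (fun j => actW act (nthL [] ws j))
        (fun a => a) (fun _ => true) (List.range (lenL ws)) (Nat.succ a) b)))) = true) :
    Nat.card (fixB φ (b :: B)) ≤ c' := by
  letI := actOf φ
  haveI := M.finite
  simp only [band_eq, Bool.and_eq_true, allL_iff, nblt, nble, nbeq] at h
  obtain ⟨⟨h1, h2⟩, ⟨h3, h4⟩, h5⟩ := h
  have h6 := h5.trans (orbitL_le_ncard (K := fixB φ B) (M.hy.words ws) (fun j _ => ⟨_, ?_, rfl⟩)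
    (show PtN N b b from ⟨rfl, h1 b List.mem_cons_self⟩) (isCanon_PtN N).canon (Set.finite_range _))
  · rw [card_fixB B b] at hc
    exact Nat.le_of_mul_le_mul_left (((Nat.mul_le_mul_right _ h6).trans hc).trans h4) h3
  · rcases nthL_mem_or [] ws j with e | e
    · intro c hc
      rw [M.applyW _ (h1 c (List.mem_cons_of_mem _ hc)), h2 _ e c hc]
    · beta_reduce; rw [e]; exact one_mem _

theorem fix_nil : Nat.card (fixB φ []) ≤ n := by
  haveI := M.finite
  exact M.card ▸ card_le_card_group _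

theorem equiv_of_le {G X : Type*} [Group G] [Finite G] (θ : G →* Perm X) (pt : ℕ → X) (x : ℕ → G)
    (hinj : ∀ i < N, ∀ j < N, pt i = pt j → i = j) (h : ∀ j < k, ∀ i < N, θ (x j) (pt i) = pt (act j i))
    (hG : Nat.card G ≤ n) : ∃ e : G ≃* Γ, ∀ a, ∀ i < N, θ a (pt i) = pt (φ (e a) i) := by
  refine M.equiv_of_card θ pt x hinj h (le_antisymm hG ?_)
  obtain ⟨ψ, h1, -⟩ := exists_hom_of_act θ pt x (fun j => φ (y j)) (List.range k) hinj (fun j _ => M.fix (y j))
    fun j hj i hi => by rw [M.apply j hi, h j (List.mem_range.1 hj) i hi]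
  have := Nat.card_le_card_of_surjective ψ h1
  rw [M.range_eq, ← Nat.card_congr (MonoidHom.ofInjective M.inj).toEquiv, M.card] at this
  exact this.trans (card_le_card_group _)

/-- the fixed points of a word. -/
theorem fix_mem {w l : List ℕ} (h : allLt N (fun i => bor (memL i l) (bif' (Nat.beq (actW act w i) i) false true)) = true)
    {p : ℕ} (hp : p < N) (e : φ (W y w) p = p) : p ∈ l := by
  have := allLt_iff.1 h p hp
  rw [← M.applyW w hp, e, Nat.beq_refl, bif'_true, bor_eq, Bool.or_false, memL_iff] at this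
  exact this

theorem fix_of {w : List ℕ} {p : ℕ} (h : band (Nat.blt p N) (Nat.beq (actW act w p) p) = true) : φ (W y w) p = p := by
  rw [band_eq, Bool.and_eq_true, nblt, nbeq] at h
  rw [M.applyW w h.1, h.2]

end Cfsg.Agent.SuzR
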