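import Cfsg.Agent.SuzR.F5
import Cfsg.Agent.Spor.SuzRep2
import Cfsg.Agent.Known.M11Eq

/-! The subgroup `3^5 : M₁₁` of the Suzuki group: `syl3` (generated certificate, helper20). -/

set_option autoImplicit false
set_option maxRecDepth 100000
set_option exponentiation.threshold 100000

namespace Cfsg.Agent.SuzR

open Cfsg.Agent.Comp Cfsg.Agent.Known Subgroup Equiv Cfsg.Agent.Known.Mdl MulAction
open scoped Pointwise IsMulCommutative

def maskL (l : List ℕ) : ℕ → ℕ :=
  List.rec (motive := fun _ => ℕ → ℕ) (fun m => m) (fun a _ ih m => force (Nat.lor m (Nat.shiftLeft 1 a)) ih) l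

theorem maskL_spec (l : List ℕ) : ∀ m q, (maskL l m).testBit q = true → m.testBit q = true ∨ q ∈ l := by
  induction l with
  | nil => exact fun _ _ h => Or.inl h
  | cons a l ih =>
    intro m q h
    have e : maskL (a :: l) m = maskL l (m ||| 1 <<< a) := force_eq _ _
    rcases ih _ q (e ▸ h) with h | h
    · rw [Nat.testBit_or, Bool.or_eq_true, Nat.one_shiftLeft, Nat.testBit_two_pow, decide_eq_true_eq] at h
      exact h.imp_right fun e => by rw [← e]; exact List.mem_cons_self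
    · exact Or.inr (List.mem_cons_of_mem _ h)

def coverL (orb : ℕ → List ℕ) (rs : List ℕ) : ℕ → ℕ :=
  List.rec (motive := fun _ => ℕ → ℕ) (fun m => m) (fun r _ ih m => force (maskL (orb r) m) ih) rs

theorem coverL_spec (orb : ℕ → List ℕ) (rs : List ℕ) :
    ∀ m q, (coverL orb rs m).testBit q = true → m.testBit q = true ∨ ∃ r ∈ rs, q ∈ orb r := by
  induction rs with
  | nil => exact fun _ _ h => Or.inl h
  | cons r rs ih =>
    intro m q h
    have e : coverL orb (r :: rs) m = coverL orb rs (maskL (orb r) m) := force_eq _ _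
    rcases ih _ q (e ▸ h) with h | ⟨s, hs, h⟩
    · exact (maskL_spec _ _ _ h).imp_right fun h => ⟨r, List.mem_cons_self, h⟩
    · exact Or.inr ⟨s, List.mem_cons_of_mem _ hs, h⟩

namespace F3

noncomputable def Lc : Lv := ⟨1596, 4, [[7,1,7,3,8,1,4,3,8],[7,3,4,1,7,3,8,1,8],[8,1,3,2,3,4,2,3,1,7]],
  fun x => force (Nat.mod x 7) (get2 2 (nat_lit 0x18c)),
  get2 17 (nat_lit 0x81a12b10456018f00), 0, 0⟩

theorem okLc : LvOk act 1782 [1024,418,1773,1776,1773,1776] Lc := ⟨by decide +kernel, allLt_iff.1 (by decide +kernel)⟩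

noncomputable def Ld : Lv := ⟨1, 3, [[7,1,8,1,7,3,8,1,0,3],[3,0,1,7,3,8,1,7,1,8]],
  fun x => force (Nat.mod x 7) (get2 2 (nat_lit 0x201)),
  get2 17 (nat_lit 0x3b5040a800040), 0, 0⟩

theorem okLd : LvOk act 1782 [265,1596,1024,418,1773,1776,1773,1776] Ld := ⟨by decide +kernel, allLt_iff.1 (by decide +kernel)⟩

def ew : List (List ℕ) := [[16],[16,16],[12,12,14,14,15,15,16,16],[12,14,15,16],[12],[12,12],[12,13,14,14,16],[12,12,13,13,14,16,16],
  [12,12,13,13,15,16],[12,13,15,15,16,16],[13,13],[13],[12,12,13,14,14,15],[12,13,13,14,15,15],[12,12,13,14,15,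
  15,16],[12,13,13,14,14,15,16,16],[15,15],[15],[13,14,15,16,16],[13,13,14,14,15,15,16],[14,14],[14]]

noncomputable def Ss : List Sg := [⟨.triv 1776 0 0, 2, 1776, [1776], [], 0⟩,
  ⟨.triv 1773 0 0, 1, 11, List.range 22, [0], 1⟩,
  ⟨La, 1, 21, List.range 22, [0], 2⟩,
  ⟨Lb, 1, 17, List.range 22, [0], 3⟩,
  ⟨Lc, 1, 0, List.range 22, [0], 4⟩,
  ⟨.triv 265 0 0, 0, 0, [0], [1,1], 5⟩]

/-- orbit representatives `r` with the label `i`, coded as `16 r + i`. -/
def rs : List ℕ := [2,16,42,52,71,96,114,152,169,201,212,232,241,470,485,646,771,801,883,906,1015,1221]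

def fp : List ℕ := [1,15,0,48,3,30,29,4,9,10,2]

def l20 : List ℕ := [83,184,265,268,417,418,505,643,900,902,1024,1190,1483,1508,1596,1684,1706,1726,1732,1773]

def ns : List (List ℕ) := [[1,5,0,3,8,1,6,3,7,7,1,7,5,1,8,3,7,3,0],[1,7,1,7,3,2,1,6,0,7,1,5,7,3,2,1,7,1,0,2],[2,0,3,2,3,8,4,3,5,1,0,1,0,
  6,1,7,1,2,5,3],[4,3,2,1,7,1,6,2,1,8,1,7,2,1,8,3,4],[4,3,7,1,2,8,1,7,1,2,6,1,8,1,2,3,4],[1,8,5,3,2,1,6,3,5,8,1,
  8,1,7,4,3,4,7,0],[0,8,3,4,3,7,3,8,2,4,1,7,5,3,2,6,1,8,1,7],[7,1,6,0,1,5,2,1,7,1,7,7,1,0,5,1,0,1,4,7,2]]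

def ls : List ℕ := [12, 13, 14, 15, 16]

noncomputable def orb (r : ℕ) : List ℕ := orbitL act (fun a => a) (fun _ => true) ls 82 (Nat.shiftRight r 4)

theorem chn : Chn act 1782 [1773, 1776] (lvs Ss [Ld]) :=
  .cons (.triv (by decide)) (.cons (.triv (by decide)) (.cons (lvOk_sub okLa (by decide))
    (.cons (lvOk_sub okLb (by decide)) (.cons okLc (.cons (.triv (by decide)) (.cons okLd .nil))))))

variable {Γ : Type*} [Group Γ] {φ : Γ →* Perm ℕ} {y : ℕ → Γ}

/-- the subgroup `3^5`. -/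
def A (y : ℕ → Γ) : Subgroup Γ := Spor.genL y ls

theorem E_mem (c : ℕ) : W y (nthL [] ew c) ∈ A y := W_mem _ fun a ha => by
  have : ∀ w ∈ ew, ∀ a ∈ w, a ∈ ls := by decide
  rcases nthL_mem_or [] ew c with e | e
  · exact Spor.mem_genL y (this _ e a ha)
  · rw [e] at ha; exact absurd ha List.not_mem_nil

variable (M : Md φ y)
include M

theorem comm : IsMulCommutative (A y) := isMulCommutative_closure (by
  rintro _ ⟨i, hi, rfl⟩ _ ⟨j, hj, rfl⟩
  simpa using M.eq (allL_iff.1 (allL_iff.1 (show allL ls (fun i => allL ls fun j => eqB act _ [i, j] [j, i]) = true by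
    decide +kernel) i hi) j hj))

theorem cube : ∀ a ∈ A y, a ^ 3 = 1 := fun a ha => by
  haveI := comm M
  induction ha using closure_induction with
  | mem a ha =>
    obtain ⟨i, hi, rfl⟩ := ha
    simpa [pow_succ, mul_assoc] using M.eq (allL_iff.1 (show allL ls (fun i => eqB act _ [i, i, i] []) = true by
      decide +kernel) i hi)
  | one => simp
  | mul a b ha hb h h' =>
    rw [Commute.mul_pow (setLike_mul_comm (s := A y) ha hb), h, h', one_mul]
  | inv a _ h => rw [inv_pow, h, inv_one]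

theorem card_A : Nat.card (A y) = 3 ^ 5 := by
  classical
  haveI := M.finite
  haveI := comm M
  refine le_antisymm ?_ (le_card_sub M [[12], [13], [14], [15], [16]] (fun w hw => W_mem _ fun a ha =>
    Spor.mem_genL y (by revert a w; decide)) [1776, 1] 82 (by decide +kernel))
  have h1 := card_dvd_exponent_pow_rank' (G := A y) (n := 3) fun g => Subtype.ext (cube M g g.2)
  refine (Nat.le_of_dvd (by positivity) h1).trans (Nat.pow_le_pow_right (by norm_num) ?_)
  refine (rank_closure_finite_le_nat_card _).trans ?_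
  rw [Nat.card_coe_set_eq]
  refine (Set.ncard_le_ncard (t := ((ls.map y).toFinset : Set Γ)) ?_ (Set.toFinite _)).trans ?_
  · rintro _ ⟨i, hi, rfl⟩; exact Finset.mem_coe.2 (List.mem_toFinset.2 (List.mem_map_of_mem hi))
  · rw [Set.ncard_coe_finset]; exact List.toFinset_card_le _

theorem E_ne {c : ℕ} (hc : c < 22) : W y (nthL [] ew c) ≠ 1 := by
  obtain ⟨b, -, h⟩ := anyLt_iff.1 (allLt_iff.1 (show allLt 22 (fun c => anyLt 2 fun b => band (Nat.blt b 1782)
    (bif' (Nat.beq (actW act (nthL [] ew c) b) (actW act [] b)) false true)) = true by decide +kernel) c hc)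
  exact ne_of M h

theorem E_succ {i : ℕ} (hi : i < 11) : W y (nthL [] ew (2 * i + 1)) = W y (nthL [] ew (2 * i)) ^ 2 := by
  simpa [sq] using eq_app M (allLt_iff.1 (show allLt 11 (fun i => eqB act _ (appendL (nthL [] ew (2 * i + 1)) [])
    (appendL (nthL [] ew (2 * i)) (nthL [] ew (2 * i)))) = true by decide +kernel) i hi)

theorem stab {q : ℕ} (hq : q < 1782) {e : Γ} (he : e ∈ A y) (h : φ e q = q) (h1 : e ≠ 1) :
    ∃ c ∈ List.range 22, e = W y (nthL [] ew c) := by
  letI := actOf φ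
  haveI := M.finite
  haveI := comm M
  have k1 : force (coverL orb rs 0) (fun m => allLt 1782 (tb m)) = true := by decide +kernel
  have k2 : allL rs (fun r => band (band (Nat.blt (Nat.shiftRight r 4) 1782) (Nat.blt (Nat.land r 15) 11))
    (band (Nat.ble 81 (lenL (orb r))) (Nat.beq (actW act (nthL [] ew (2 * Nat.land r 15)) (Nat.shiftRight r 4))
      (Nat.shiftRight r 4)))) = true := by decide +kernel
  rw [force_eq] at k1
  obtain ⟨r, hr, hqr⟩ := (coverL_spec orb rs 0 q (by rw [← tb_eq]; exact allLt_iff.1 k1 q hq)).resolve_left (by simp)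
  have k3 := allL_iff.1 k2 r hr
  simp only [band_eq, Bool.and_eq_true, nblt, nble, nbeq] at k3
  obtain ⟨⟨a1, a2⟩, a3, a4⟩ := k3
  have hc : CodesIn (fun i g => g = y i) ls (A y) := fun c hc => ⟨_, Spor.mem_genL y hc, rfl⟩
  have hp : PtN 1782 (Nat.shiftRight r 4) (Nat.shiftRight r 4) := ⟨rfl, a1⟩
  obtain ⟨g, hg, e1, -⟩ := orbitL_reach M.hy hc hp hqr
  have b1 := a3.trans (orbitL_le_ncard M.hy hc hp (isCanon_PtN _).canon (Set.finite_range _))
  have b2 := card_eq_ncard_orbit_mul (A y) (Nat.shiftRight r 4)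
  rw [card_A M] at b2
  have b3 : Nat.card ↥(A y ⊓ stabilizer Γ (Nat.shiftRight r 4)) ≤ 3 :=
    Nat.le_of_mul_le_mul_left ((Nat.mul_le_mul_right _ b1).trans b2.ge) (by norm_num)
  haveI : Fact (Nat.Prime 3) := ⟨by norm_num⟩
  have b4 := cube M _ (E_mem (y := y) (2 * Nat.land r 15))
  have b5 : zpowers (W y (nthL [] ew (2 * Nat.land r 15))) = A y ⊓ stabilizer Γ (Nat.shiftRight r 4) :=
    eq_of_le_of_card_ge (zpowers_le.2 ⟨E_mem _, (M.applyW _ a1).trans a4⟩) (by
      rwa [Nat.card_zpowers, orderOf_eq_prime b4 (E_ne M (by omega))])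
  have b6 : e ∈ A y ⊓ stabilizer Γ (Nat.shiftRight r 4) := ⟨he, mem_stabilizer_iff.2 (by
    rw [← smul_left_cancel_iff g, smul_smul, setLike_mul_comm (s := A y) hg he, mul_smul, ← e1]
    exact h)⟩
  obtain ⟨m, hm, rfl⟩ := (mem_zp_iff (by norm_num) b4).1 (b5 ▸ b6)
  interval_cases m
  · simp at h1
  · exact ⟨_, List.mem_range.2 (by omega), pow_one _⟩
  · exact ⟨_, List.mem_range.2 (by omega), (E_succ M a2).symm⟩

theorem fixp {i : ℕ} (hi : i < 11) : nthL 0 fp i < 1782 ∧ φ (W y (nthL [] ew (2 * i))) (nthL 0 fp i) = nthL 0 fp i := by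
  have := allLt_iff.1 (show allLt 11 (fun i => band (Nat.blt (nthL 0 fp i) 1782)
    (Nat.beq (actW act (nthL [] ew (2 * i)) (nthL 0 fp i)) (nthL 0 fp i))) = true by decide +kernel) i hi
  exact ⟨by rw [band_eq, Bool.and_eq_true, nblt] at this; exact this.1, fix_of M this⟩

theorem cj {g : Γ} (hg : g ∈ normalizer (A y : Set Γ)) {c : ℕ} (hc : c < 22) :
    ∃ d ∈ List.range 22, g * W y (nthL [] ew c) * g⁻¹ = W y (nthL [] ew d) := by
  obtain ⟨h1, h2⟩ := fixp M (i := c / 2) (by omega)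
  refine stab M (M.lt g h1) ((mem_normalizer_iff.1 hg _).1 (E_mem c)) (fix_conj ?_) (by simpa using E_ne M hc)
  rcases Nat.even_or_odd' c with ⟨i, rfl | rfl⟩
  · rwa [show 2 * i / 2 = i by omega] at h2 ⊢
  · rw [show (2 * i + 1) / 2 = i by omega] at h2 ⊢
    rw [E_succ M (by omega), sq, map_mul, Perm.mul_apply, h2, h2]

theorem up : Nat.card (normalizer (A y : Set Γ)) ≤ 7920 * 3 ^ 5 := by
  haveI := M.finite
  refine (card_step (φ := φ) (m := 20 * 54) _ 1776 (List.range 1782)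
    (fun g _ => List.mem_range.2 (M.lt g (by decide))) ?_).trans (by rw [List.length_range]; norm_num)
  refine card_step (φ := φ) _ 1773 l20 (fun g hg => ?_) ?_
  · obtain ⟨d, hd, e⟩ := cj M hg.1 (c := 11) (by norm_num)
    have h1 : φ (W y (nthL [] ew 11)) 1776 = 1773 := (M.applyW _ (by decide)).trans (by decide +kernel)
    have h2 : φ g 1773 = actW act (nthL [] ew d) 1776 := by
      rw [← h1, ← M.applyW _ (by decide), ← e, map_mul φ _ g⁻¹, Perm.mul_apply, inv_mem (show g ∈ fixB φ [1776] from hg.2) _ List.mem_cons_self,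
        map_mul, Perm.mul_apply]
    have h3 : ∀ d ∈ List.range 22, actW act (nthL [] ew d) 1776 ∈ 1776 :: l20 := by decide +kernel
    exact List.erase_cons_head 1776 l20 ▸ mem_tail hg.2 (by decide) (h2 ▸ h3 d hd)
  refine bt_le M (ew := ew) (fuel := 4) chn (fx2 M) (fun g hg => List.forall_mem_cons.2 ⟨hg.2 _ List.mem_cons_self,
    hg.1.2⟩) ?_ (by decide +kernel)
  simp only [Ss, List.forall_mem_cons, List.not_mem_nil, IsEmpty.forall_iff, implies_true, and_true]
  exact ⟨fun g hg => Mean.pt (List.mem_singleton.2 (hg.1.2 _ List.mem_cons_self)),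
    fun g hg => Mean.cj (cj M hg.1.1 (by norm_num)), fun g hg => Mean.cj (cj M hg.1.1 (by norm_num)),
    fun g hg => Mean.cj (cj M hg.1.1 (by norm_num)), fun g hg => Mean.cj (cj M hg.1.1 (by norm_num)),
    fun g _ => Mean.zero g 0⟩

theorem mem_N {j : ℕ} (hj : j < 8) : W y (nthL [] ns j) ∈ normalizer (A y : Set Γ) := by
  haveI := M.finite
  refine mem_normalizer_closure ?_
  rintro _ ⟨l, hl, rfl⟩
  obtain ⟨c, -, hc⟩ := anyLt_iff.1 (allL_iff.1 (allLt_iff.1 (show allLt 8 (fun j => allL ls fun l => anyLt 22 fun c =>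
    eqB act [0,1424,1712,1680,1779,1772,1777,1776]
      (appendL (nthL [] ns j) [l]) (appendL (nthL [] ew c) (nthL [] ns j))) = true by decide +kernel) j hj) l hl)
  have := eq_app M hc
  rw [W_cons, W_nil, mul_one] at this
  rw [this, mul_inv_cancel_right]; exact E_mem c

theorem main : IsElementaryAbelian 3 (A y) ∧ Nat.card (A y) = 3 ^ 5 ∧ centralizer (A y : Set Γ) = A y ∧
    ∃ _ : ((A y).subgroupOf (normalizer (A y : Set Γ))).Normal,
      Spor.IsoM11 (↥(normalizer (A y : Set Γ)) ⧸ (A y).subgroupOf (normalizer (A y : Set Γ))) := by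
  haveI := M.finite
  haveI := comm M
  let θ0 := QuotientGroup.lift ((A y).subgroupOf (normalizer (A y : Set Γ))) (A y).normalizerMonoidHom (by
    rw [normalizerMonoidHom_ker]; exact subgroupOf_mono _ (A y).le_centralizer)
  let θ := (toPermHom (MulAut (A y)) (Subgroup (A y))).comp θ0
  let pt : ℕ → Subgroup (A y) := fun i => zpowers ⟨_, E_mem (2 * i)⟩
  have hθ : ∀ (n : normalizer (A y : Set Γ)) (t : A y), θ (QuotientGroup.mk n) (zpowers t) =
      zpowers ((A y).normalizerMonoidHom n t) := fun n t => MonoidHom.map_zpowers _ _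
  have c1 := card_eq_card_quotient_mul_card_subgroup ((A y).subgroupOf (normalizer (A y : Set Γ)))
  rw [Nat.card_congr (subgroupOfEquivOfLe (A y).le_normalizer).toEquiv, card_A M] at c1
  have hinj : ∀ i < 11, ∀ j < 11, pt i = pt j → i = j := fun i hi j hj h => by
    have h1 : pt j ≤ (fixB φ [nthL 0 fp j]).subgroupOf (A y) :=
      zpowers_le.2 (List.forall_mem_singleton.2 (fixp M hj).2)
    have h2 := h1 (show (⟨_, E_mem (2 * i)⟩ : A y) ∈ pt j from h ▸ mem_zpowers _) _ List.mem_cons_self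
    have h3 : ∀ i < 11, ∀ j < 11, actW act (nthL [] ew (2 * i)) (nthL 0 fp j) = nthL 0 fp j → i = j := by
      decide +kernel
    exact h3 i hi j hj ((M.applyW _ (fixp M hj).1).symm.trans h2)
  obtain ⟨e, he⟩ := equiv_of_le M11T.mdl θ pt
    (fun j => if h : j < 8 then QuotientGroup.mk ⟨_, mem_N M h⟩ else 1) hinj (fun j hj i hi => by
      rw [dif_pos hj, hθ]
      have h1 := allLt_iff.1 (allLt_iff.1 (show allLt 8 (fun j => allLt 11 fun i => force (M11T.act j i) fun s =>
        band (Nat.blt s 11) (anyLt 2 fun t => eqB act [0,1424,1712,1680,1779,1772,1777,1776]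
          (appendL (nthL [] ns j) (nthL [] ew (2 * i)))
          (appendL (nthL [] ew (2 * s + t)) (nthL [] ns j)))) = true by decide +kernel) j hj) i hi
      rw [force_eq, band_eq, Bool.and_eq_true, nblt, anyLt_iff] at h1
      obtain ⟨hs, t, ht, h1⟩ := h1
      have h2 : (A y).normalizerMonoidHom ⟨_, mem_N M hj⟩ ⟨_, E_mem (2 * i)⟩ = ⟨_, E_mem (2 * M11T.act j i + t)⟩ :=
        Subtype.ext (mul_inv_eq_iff_eq_mul.2 (eq_app M h1))
      rw [h2]
      interval_cases t
      · rfl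
      · rw [← zpowers_inv]
        congr 1
        refine Subtype.ext (inv_eq_of_mul_eq_one_left ?_)
        show W y _ * W y _ = 1
        rw [E_succ M hs, ← pow_succ']; exact cube M _ (E_mem _))
    (Nat.le_of_mul_le_mul_right (c1 ▸ up M) (by norm_num))
  refine ⟨⟨comm M, cube M⟩, card_A M, le_antisymm (fun c hc => ?_) (A y).le_centralizer, inferInstance,
    ⟨e.trans M11T.equiv.some.symm⟩⟩
  have h1 : (A y).normalizerMonoidHom ⟨c, centralizer_le_normalizer _ hc⟩ = 1 := by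
    rw [← MonoidHom.mem_ker, normalizerMonoidHom_ker]; exact hc
  have h2 : e (QuotientGroup.mk ⟨c, centralizer_le_normalizer _ hc⟩) = 1 := M11T.mdl.ext fun i _ hi => by
    have h3 := he (QuotientGroup.mk ⟨c, centralizer_le_normalizer _ hc⟩) i hi
    rw [hθ, h1] at h3
    rw [map_one]
    exact (hinj i hi _ (M11T.mdl.lt _ hi) h3).symm
  exact mem_subgroupOf.1 ((QuotientGroup.eq_one_iff (N := (A y).subgroupOf (normalizer (A y : Set Γ))) _).1
    (e.map_eq_one_iff.1 h2))

theorem syl {N : Subgroup Γ} (hN : N.index ∣ 22880) (P : Sylow 3 N) :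
    ¬ 3 ∣ ((P : Subgroup N).map N.subtype).index ∧ ∃ A : Subgroup Γ, A ≤ (P : Subgroup N).map N.subtype ∧
      IsElementaryAbelian 3 A ∧ Nat.card A = 3 ^ 5 ∧ centralizer (A : Set Γ) = A ∧
      ∃ _ : (A.subgroupOf (normalizer (A : Set Γ))).Normal,
        Spor.IsoM11 (↥(normalizer (A : Set Γ)) ⧸ A.subgroupOf (normalizer (A : Set Γ))) := by
  haveI := M.finite
  haveI : Fact (Nat.Prime 3) := ⟨by norm_num⟩
  have h1 : ¬ 3 ∣ ((P : Subgroup N).map N.subtype).index := by
    rw [index_map_subtype, Nat.Prime.dvd_mul Nat.prime_three, not_or]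
    exact ⟨P.not_dvd_index, fun h => absurd (h.trans hN) (by norm_num)⟩
  obtain ⟨Q, hQ⟩ := (IsPGroup.of_card (card_A M)).exists_le_sylow
  obtain ⟨g, hg⟩ := exists_smul_eq Γ Q ((P.isPGroup'.map N.subtype).toSylow h1)
  obtain ⟨φ', M'⟩ := M.cj g⁻¹
  refine ⟨h1, _, ?_, main M'⟩
  have e : (A fun j => g⁻¹⁻¹ * y j * g⁻¹) = (A y).map (MulAut.conj g).toMonoidHom := by
    rw [A, A, Spor.map_genL', inv_inv]; rfl
  rw [e]
  exact (map_mono hQ).trans (congrArg Sylow.toSubgroup hg).le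

omit M in
theorem W_y {w : List ℕ} (h : ∀ i ∈ w, i < 7) : W T.y w = (Spor.ev Spor.SuzM.g w)⁻¹ := by
  induction w with
  | nil => simp
  | cons i w ih =>
    have e : ∀ i < 7, nthL [0] T.wds i = [i] := by decide
    rw [W_cons, ih fun j hj => h j (List.mem_cons_of_mem _ hj), T.y, e i (h i List.mem_cons_self)]
    simp

omit M in
theorem index_N : (normalizer (zpowers (Spor.ev Spor.SuzM.g (Spor.powW [1,2,3,2,3] 5)) : Set Spor.Suz)).index ∣ 22880 := by
  haveI := mdl.finite
  rw [← Spor.SuzM2.index, ← zpowers_inv, ← W_y (by decide)]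
  refine index_dvd_of_le (Spor.genW_le fun w hw => ?_)
  have h1 : ∀ w ∈ Spor.JSuz2.subs, ∀ i ∈ w, i < 7 := by decide +kernel
  rw [← inv_mem_iff, ← W_y (h1 w hw)]
  obtain ⟨s, -, hs⟩ := anyLt_iff.1 (allL_iff.1 (show allL Spor.JSuz2.subs (fun w => anyLt 2 fun s =>
    eqB act [0,1424,1712,1680,1779,1772,1777,1776] (appendL w (Spor.powW [1,2,3,2,3] 5))
      (appendL (Spor.powW [1,2,3,2,3] (5 * (s + 1))) w)) = true by decide +kernel) w hw)
  refine mem_norm_zp (r := s + 1) ((eq_app mdl hs).trans ?_)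
  have e : ∀ m, ∀ i ∈ Spor.powW [1,2,3,2,3] m, i < 7 := fun m i hi => by
    obtain ⟨l, hl, hi'⟩ := List.mem_flatten.1 hi
    exact (show ∀ i ∈ [1,2,3,2,3], i < 7 by decide) i (List.eq_of_mem_replicate hl ▸ hi')
  rw [W_y (e _), W_y (e _), Spor.ev_powW, Spor.ev_powW, pow_mul, inv_pow]

end F3

theorem syl3 {G : Type*} [Group G] (e : G ≃* Spor.Suz) (X : Subgroup G)
    (hX : X.map e.toMonoidHom = zpowers (Spor.ev Spor.SuzM.g (Spor.powW [1,2,3,2,3] 5)))
    (P : Sylow 3 (normalizer (X : Set G))) :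
    ¬ 3 ∣ ((P : Subgroup (normalizer (X : Set G))).map (normalizer (X : Set G)).subtype).index ∧
      ∃ A : Subgroup G, A ≤ (P : Subgroup (normalizer (X : Set G))).map (normalizer (X : Set G)).subtype ∧
        IsElementaryAbelian 3 A ∧ Nat.card A = 3 ^ 5 ∧ centralizer (A : Set G) = A ∧
        ∃ _ : (A.subgroupOf (normalizer (A : Set G))).Normal,
          Spor.IsoM11 (↥(normalizer (A : Set G)) ⧸ A.subgroupOf (normalizer (A : Set G))) :=
  F3.syl (mdl.congr e) (by
    rw [← index_map_equiv _ e, ← MulEquiv.toMonoidHom_eq_coe, map_equiv_normalizer_eq, hX]; exact F3.index_N) P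

end Cfsg.Agent.SuzR
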