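import Cfsg.Agent.SuzR.F7

/-! Sylow 5-subgroups of the Suzuki group: `syl5` (generated certificate, helper20). -/

set_option autoImplicit false
set_option maxRecDepth 100000
set_option exponentiation.threshold 100000

namespace Cfsg.Agent.SuzR

open Cfsg.Agent.Comp Cfsg.Agent.Known Subgroup Equiv Cfsg.Agent.Known.Mdl

theorem lvOk_sub {ac : ℕ → ℕ → ℕ} {N : ℕ} {B B' : List ℕ} {L : Lv} (h : LvOk ac N B L) (hs : ∀ c ∈ B', c ∈ B) :
    LvOk ac N B' L := by
  refine ⟨?_, h.2⟩
  have := h.1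
  simp only [band_eq, Bool.and_eq_true, allL_iff] at this ⊢
  exact ⟨this.1, fun w hw c hc => this.2 w hw c (hs c hc)⟩

section
variable {Γ : Type*} [Group Γ] {φ : Γ →* Perm ℕ} {N k n : ℕ} {y : ℕ → Γ} {ac : ℕ → ℕ → ℕ} {B₀ : List ℕ}

theorem fix_mem' (M : Mdl φ N k n y ac B₀) {w l : List ℕ}
    (h : allLt N (fun i => bif' (Nat.beq (actW ac w i) i) (memL i l) true) = true)
    {p : ℕ} (hp : p < N) (e : φ (W y w) p = p) : p ∈ l := by
  have := allLt_iff.1 h p hp
  rwa [← M.applyW w hp, e, Nat.beq_refl, bif'_true, memL_iff] at this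

theorem eq_app (M : Mdl φ N k n y ac B₀) {a b c d : List ℕ} (h : eqB ac B₀ (appendL a b) (appendL c d) = true) :
    W y a * W y b = W y c * W y d := by
  rw [← W_append, ← W_append, ← appendL_eq, ← appendL_eq]; exact M.eq h

theorem fix_conj {g e : Γ} {p : ℕ} (h : φ e p = p) : φ (g * e * g⁻¹) (φ g p) = φ g p := by
  rw [← Perm.mul_apply, ← map_mul, inv_mul_cancel_right, map_mul, Perm.mul_apply, h]

/-- a complement `Z × S` to a normal Hall subgroup. -/
theorem quot_equiv_prod [Finite Γ] {P Z S : Subgroup Γ} (hZ : Z ≤ normalizer (P : Set Γ)) (hS : S ≤ normalizer (P : Set Γ))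
    (hc : ∀ a ∈ Z, ∀ b ∈ S, Commute a b) (hd : Disjoint Z S) {a b : ℕ} (hP : Nat.card P = a)
    (hZS : Nat.card Z * Nat.card S = b) (hab : a.Coprime b) (hN : Nat.card (normalizer (P : Set Γ)) ≤ b * a) :
    Nat.card (normalizer (P : Set Γ)) = b * a ∧
      Nonempty (↥(normalizer (P : Set Γ)) ⧸ P.subgroupOf (normalizer (P : Set Γ)) ≃* Z × S) := by
  let f0 : Z × S →* Γ := Z.subtype.noncommCoprod S.subtype fun a b => hc a a.2 b b.2
  have i0 : Function.Injective f0 := (MonoidHom.noncommCoprod_injective _ _ _).2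
    ⟨Z.subtype_injective, S.subtype_injective, by rwa [range_subtype, range_subtype]⟩
  let f := (QuotientGroup.mk' (P.subgroupOf (normalizer (P : Set Γ)))).comp
    (f0.codRestrict (normalizer (P : Set Γ)) fun u => mul_mem (hZ u.1.2) (hS u.2.2))
  have cZ : Nat.card (Z × S) = b := by rw [Nat.card_prod, hZS]
  have i1 : Function.Injective f := (injective_iff_map_eq_one f).2 fun u hu => by
    have h1 : f0 u ∈ P := mem_subgroupOf.1 ((QuotientGroup.eq_one_iff (N := P.subgroupOf (normalizer (P : Set Γ))) _).1 hu)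
    have h2 := orderOf_dvd_natCard P h1
    have h3 : orderOf (f0 u) ∣ b := by rw [orderOf_injective f0 i0, ← cZ]; exact _root_.orderOf_dvd_natCard u
    exact i0 ((orderOf_eq_one_iff.1 (Nat.eq_one_of_dvd_coprimes hab (hP ▸ h2) h3)).trans (map_one f0).symm)
  have c1 := card_eq_card_quotient_mul_card_subgroup (P.subgroupOf (normalizer (P : Set Γ)))
  rw [Nat.card_congr (subgroupOfEquivOfLe P.le_normalizer).toEquiv, hP] at c1
  have a0 : 0 < a := hP ▸ Nat.card_pos
  have c2 := Nat.le_of_mul_le_mul_right (c1 ▸ hN) a0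
  have c3 := Nat.card_le_card_of_injective f i1
  exact ⟨by rw [c1, le_antisymm c2 (cZ ▸ c3)], ⟨(MulEquiv.ofBijective f
    ((Nat.bijective_iff_injective_and_card f).2 ⟨i1, le_antisymm c3 (cZ ▸ c2)⟩)).symm⟩⟩

end

namespace F5

noncomputable def Lc : Lv := ⟨1025, 12, [[7,3,4,1,7,3,8,1,8],[8,1,3,2,3,4,2,3,1,7],[7,1,7,3,8,1,4,3,8],[8,1,3,2,4,3,2,3,1,7],[3,0,1,7,3,8,1,7,1,8],[7,
  1,8,1,7,3,8,1,0,3],[2,3,4,8,1,0,7,1,2,3,4],[4,3,2,1,8,0,1,7,4,3,2],[8,4,3,2,1,8,4,1,3,8,1,7],[2,1,8,1,4,7,1,0,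
  1,8,1,8],[7,3,1,0,1,2,1,3,7,1,0,3,7]],
  fun x => force (Nat.mod x 41) (get2 4 (nat_lit 0x250000b8000490001007000a0000036000)),
  get2 17 (nat_lit 0xcb4569b20859296073f436bd172f836c4395226db08d5810040), 0, 0⟩

theorem okLc : LvOk act 1782 [1024,418,418,1773,1776] Lc := ⟨by decide +kernel, allLt_iff.1 (by decide +kernel)⟩

def ew : List (List ℕ) := [[],[11],[11,11],[11,11,11],[11,11,11,11],[10],[10,11],[10,11,11],[10,11,11,11],[10,11,11,11,11],[10,10],[10,
  10,11],[10,10,11,11],[10,10,11,11,11],[10,10,11,11,11,11],[10,10,10],[10,10,10,11],[10,10,10,11,11],[10,10,10,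
  11,11,11],[10,10,10,11,11,11,11],[10,10,10,10],[10,10,10,10,11],[10,10,10,10,11,11],[10,10,10,10,11,11,11],
  [10,10,10,10,11,11,11,11]]

def FX : List ℕ := [210,211,418,419,434,435,450,451,690,691,820,821,1024,1025,1156,1157,1416,1417,1570,1571,1574,1575,1690,1691,
  1728,1729,1738,1739,1772,1773,1776,1777]

def nz : List ℕ := [1,2,3,4,5,6,7,8,9,10,11,12,13,14,15,16,17,18,19,20,21,22,23,24]

noncomputable def Ss : List Sg := [⟨.triv 418 0 0, 2, 418, [418], [], 0⟩,
  ⟨Lb, 2, 1024, FX, [], 0⟩,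
  ⟨Lc, 1, 1, nz, [0], 2⟩,
  ⟨.triv 1024 0 0, 0, 0, [0], [1], 2⟩]

def w : List ℕ := [5,1,7,1,5,6,1,8,1,6,8,1,5,7,3,1,8,1,2,1,0,5,1,0,1,2,7,4,3,8,3,0,2]

def s0 : List ℕ := [4,2,3,4,3,2,3,2]

def s1 : List ℕ := [2,1,0,1,7,1,7,4,3,8,3,7,4,3,8,3,7,2]

def nsw : List (List ℕ) := [[], s0, s1, s0 ++ s1, s1 ++ s0, s0 ++ s1 ++ s0]

def cert : List (ℕ × ℕ × ℕ) := [(0,0,0),(1,0,4),(1,0,3),(1,0,2),(1,0,1),(0,0,1),(2,0,1),(0,1,1),(1,1,2),(2,1,1),(0,0,2),(1,1,4),(2,0,2),(2,1,
  2),(0,1,2),(0,0,3),(0,1,3),(2,1,3),(2,0,3),(1,1,1),(0,0,4),(2,1,4),(1,1,3),(0,1,4),(2,0,4)]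

theorem chn : Chn act 1782 [418, 1773, 1776] (lvs Ss []) :=
  .cons (.triv (by decide)) (.cons (lvOk_sub okLb (by decide)) (.cons okLc (.cons (.triv (by decide)) .nil)))

variable {Γ : Type*} [Group Γ] {φ : Γ →* Perm ℕ} {y : ℕ → Γ}

/-- the Sylow 5-subgroup. -/
def P (y : ℕ → Γ) : Subgroup Γ := zpowers (y 11) ⊔ zpowers (y 10)

theorem E_mem (c : ℕ) : W y (nthL [] ew c) ∈ P y := W_mem _ fun a ha => by
  have : ∀ w ∈ ew, ∀ a ∈ w, a = 10 ∨ a = 11 := by decide
  rcases nthL_mem_or [] ew c with e | e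
  · rcases this _ e a ha with rfl | rfl
    exacts [mem_sup_right (mem_zpowers _), mem_sup_left (mem_zpowers _)]
  · rw [e] at ha; exact absurd ha List.not_mem_nil

variable (M : Md φ y)
include M

theorem o10 : orderOf (y 10) = 5 := by simpa using ord_of M (w := [10]) (p := 5) (a := 0) (by norm_num) (by decide +kernel)

theorem o11 : orderOf (y 11) = 5 := by simpa using ord_of M (w := [11]) (p := 5) (a := 0) (by norm_num) (by decide +kernel)

theorem o7 : orderOf (W y [10, 11, 11]) = 5 := ord_of M (a := 0) (by norm_num) (by decide +kernel)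

theorem cm : Commute (y 10) (y 11) := by
  simpa [Commute, SemiconjBy] using M.eq (u := [10, 11]) (v := [11, 10]) (by decide +kernel)

theorem hn : ∀ k ∈ zpowers (y 11), y 10 * k * (y 10)⁻¹ ∈ zpowers (y 11) := by
  rintro _ ⟨i, rfl⟩
  rw [((cm M).zpow_right i).eq, mul_inv_cancel_right]; exact zpow_mem (mem_zpowers _) i

theorem hn' : ∀ k ∈ zpowers (y 11), (y 10)⁻¹ * k * y 10 ∈ zpowers (y 11) := by
  rintro _ ⟨i, rfl⟩
  rw [mul_assoc, ← ((cm M).zpow_right i).eq, inv_mul_cancel_left]; exact zpow_mem (mem_zpowers _) i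

theorem mem_P {g : Γ} (hg : g ∈ P y) (h1 : g ≠ 1) : ∃ c ∈ nz, g = W y (nthL [] ew c) := by
  obtain ⟨i, hi, k, hk, rfl⟩ := ext_mem (e := 5) (by norm_num) (hn M) (hn' M)
    (by rw [← o10 M, pow_orderOf_eq_one]; exact one_mem _) hg
  obtain ⟨j, hj, rfl⟩ := (mem_zp_iff (p := 5) (by norm_num) (by rw [← o11 M, pow_orderOf_eq_one])).1 hk
  have : ∀ i < 5, ∀ j < 5, (i = 0 ∧ j = 0) ∨ (5 * i + j ∈ nz ∧
    nthL [] ew (5 * i + j) = List.replicate i 10 ++ List.replicate j 11) := by decide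
  rcases this i hi j hj with ⟨rfl, rfl⟩ | h
  · simp at h1
  · exact ⟨_, h.1, by rw [h.2]; simp⟩

theorem card_P : Nat.card (P y) = 25 := by
  rw [P, ext_card (e := 5) (by norm_num) (hn M) (hn' M) (by rw [← o10 M, pow_orderOf_eq_one]; exact one_mem _),
    Nat.card_zpowers, o11 M]
  intro i h0 hi h
  have h1 : zpowers (y 11) ≤ fixB φ [1024] := zpowers_le.2 (List.forall_mem_singleton.2 (by
    simpa using fix_of M (w := [11]) (p := 1024) (by decide +kernel)))
  have h2 := h1 h 1024 List.mem_cons_self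
  rw [M.applyI 10 i (by decide)] at h2
  have : allLt 5 (fun i => bor (Nat.beq i 0) (bif' (Nat.beq (iter (act 10) i 1024) 1024) false true)) = true := by
    decide +kernel
  have := allLt_iff.1 this i hi
  rw [h2, nbeq_false.2 h0.ne'] at this
  exact absurd this (by decide)

theorem cj {g e : Γ} (hg : g ∈ normalizer (P y : Set Γ)) (he : e ∈ P y) (h1 : e ≠ 1) :
    ∃ c ∈ nz, g * e * g⁻¹ = W y (nthL [] ew c) :=
  mem_P M ((mem_normalizer_iff.1 hg e).1 he) (by simpa using h1)

theorem n10 : y 10 ≠ 1 := fun e => by have := o10 M; rw [e, orderOf_one] at this; omega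

theorem n11 : y 11 ≠ 1 := fun e => by have := o11 M; rw [e, orderOf_one] at this; omega

theorem fx {g e : Γ} (hg : g ∈ normalizer (P y : Set Γ)) (he : e ∈ P y) (h1 : e ≠ 1) {p : ℕ} (hp : p < 1782)
    (h : φ e p = p) : φ g p ∈ FX := by
  obtain ⟨c, hc, e'⟩ := cj M hg he h1
  exact fix_mem' M (allL_iff.1 (show allL nz (fun c => allLt 1782 fun i =>
    bif' (Nat.beq (actW act (nthL [] ew c) i) i) (memL i FX) true) = true by decide +kernel) c hc) (M.lt g hp)
    (e' ▸ fix_conj h)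

theorem fxab {g : Γ} (hg : g ∈ normalizer (P y : Set Γ)) {p : ℕ} (hp : p ∈ [1776, 1773]) : φ g p ∈ [1776, 1773] := by
  have h0 : ∀ p ∈ [1776, 1773], p < 1782 := by decide
  have h1 : P y ≤ fixB φ [1776, 1773] := sup_le
    (zpowers_le.2 fun p hp => by rw [M.apply 11 (h0 p hp)]; revert p; decide +kernel)
    (zpowers_le.2 fun p hp => by rw [M.apply 10 (h0 p hp)]; revert p; decide +kernel)
  have h2 : ∀ e ∈ P y, φ e (φ g p) = φ g p := fun e he => by
    have := fix_conj (g := g) (h1 ((mem_normalizer_iff''.1 hg e).1 he) p hp)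
    rwa [show g * (g⁻¹ * e * g) * g⁻¹ = e by group] at this
  have h3 := fx M hg (mem_sup_right (mem_zpowers _)) (n10 M) (h0 p hp) (h1 (mem_sup_right (mem_zpowers _)) p hp)
  have h4 : ∀ p ∈ FX, act 10 p = p → act 11 p = p → p ∈ [1776, 1773] := by decide +kernel
  refine h4 _ h3 ?_ ?_ <;> rw [← M.apply _ (M.lt g (h0 p hp))]
  exacts [h2 _ (mem_sup_right (mem_zpowers _)), h2 _ (mem_sup_left (mem_zpowers _))]

theorem up : Nat.card (normalizer (P y : Set Γ)) ≤ 24 * 25 := by
  haveI := M.finite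
  have hK : normalizer (P y : Set Γ) ⊓ fixB φ [1776] ≤ fixB φ [1773, 1776] := fun g hg =>
    List.forall_mem_cons.2 ⟨by simpa using mem_tail hg.2 (by decide) (fxab M hg.1 (p := 1773) (by decide)), hg.2⟩
  refine card_step (φ := φ) (m := 300) _ 1776 [1776, 1773] (fun g hg => fxab M hg (by decide)) ?_
  refine orb_step M (a := 15) (m := 20) (.cons okLa chn) (fx2 M) hK (l := FX) (fun g hg =>
    fx M hg.1 (mem_sup_right (mem_zpowers _)) (n10 M) (by decide)
      (by rw [M.apply 10 (by decide)]; decide +kernel)) (by decide +kernel) ?_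
  refine bt_le M (ew := ew) (fuel := 4) chn (chn_tail M (c' := 1920) (.cons okLa chn) (fx2 M) (by decide +kernel))
    (fun g hg => List.forall_mem_cons.2 ⟨hg.2 _ List.mem_cons_self, hK hg.1⟩) ?_ (by decide +kernel)
  simp only [Ss, List.forall_mem_cons, List.not_mem_nil, IsEmpty.forall_iff, implies_true, and_true]
  exact ⟨fun g hg => Mean.pt (List.mem_singleton.2 (hg.2 _ List.mem_cons_self)),
    fun g hg => Mean.pt (fx M hg.1.1 (mem_sup_left (mem_zpowers _)) (n11 M) (by decide)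
      (by rw [M.apply 11 (by decide)]; decide +kernel)),
    fun g hg => Mean.cj (cj M hg.1.1 (E_mem 1) (by simpa [nthL, ew] using n11 M)), fun g _ => Mean.zero g 0⟩

theorem mem_N {u : List ℕ} (h : allL [10, 11] (fun j => anyLt 25 fun c =>
    eqB act [0,1424,1712,1680,1779,1772,1777,1776] (appendL u [j]) (appendL (nthL [] ew c) u)) = true) :
    W y u ∈ normalizer (P y : Set Γ) := by
  haveI := M.finite
  have e : P y = closure {y 11, y 10} := by
    rw [P, zpowers_eq_closure, zpowers_eq_closure, ← Subgroup.closure_union]; rfl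
  have k : ∀ j ∈ [10, 11], W y u * y j * (W y u)⁻¹ ∈ P y := fun j hj => by
    obtain ⟨c, -, hc⟩ := anyLt_iff.1 (allL_iff.1 h j hj)
    have := eq_app M hc
    rw [W_cons, W_nil, mul_one] at this
    rw [this, mul_inv_cancel_right]; exact E_mem c
  rw [e] at k ⊢
  refine mem_normalizer_closure ?_
  rintro _ (rfl | rfl)
  exacts [k 11 (by decide), k 10 (by decide)]

theorem quot : Nat.card (normalizer (P y : Set Γ)) = 600 ∧
    Nonempty (↥(normalizer (P y : Set Γ)) ⧸ (P y).subgroupOf (normalizer (P y : Set Γ)) ≃*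
      Multiplicative (ZMod 4) × Perm (Fin 3)) := by
  haveI := M.finite
  let s : ℕ → Γ := fun i => W y (nthL [] [s0, s1] i)
  have o4 : orderOf (W y w) = 2 ^ (1 + 1) := orderOf_eq_prime_pow
    (by simpa [sq] using ne_of M (u := w ++ w) (v := []) (b := 0) (by decide +kernel))
    (by simpa [pow_succ, mul_assoc] using M.eq (u := w ++ (w ++ (w ++ w))) (v := []) (by decide +kernel))
  have eS := cox_equiv s 2 (fun i hi => by
      simpa using eq_app M (allLt_iff.1 (show allLt 2 (fun i => eqB act _ (appendL (nthL [] [s0, s1] i)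
        (nthL [] [s0, s1] i)) (appendL [] [])) = true by decide +kernel) i hi))
    (fun i j h1 h2 => by omega) (fun i hi => by
      obtain rfl : i = 0 := by omega
      have := M.eq (u := s1 ++ s0 ++ s1) (v := s0 ++ s1 ++ s0) (by decide +kernel)
      rw [W_append, W_append, W_append, W_append] at this
      exact this) le_rfl
    (ne_of M (b := 0) (by decide +kernel)) (by omega)
  have hc : ∀ b ∈ closure (s '' {i | i < 2}), Commute (W y w) b := fun b hb =>
    (mem_centralizer_singleton_iff.1 ((closure_le (centralizer {W y w})).2 (by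
      rintro _ ⟨i, hi, rfl⟩
      exact mem_centralizer_singleton_iff.2 (eq_app M (allLt_iff.1 (show allLt 2 (fun i => eqB act _
        (appendL (nthL [] [s0, s1] i) w) (appendL w (nthL [] [s0, s1] i))) = true by decide +kernel) i hi))) hb)).symm
  have hc' : ∀ a ∈ zpowers (W y w), ∀ b ∈ closure (s '' {i | i < 2}), Commute a b := by
    rintro _ ⟨i, rfl⟩ b hb; exact (hc b hb).zpow_left i
  have cZ : Nat.card (zpowers (W y w)) = 4 := by rw [Nat.card_zpowers, o4]; rfl
  obtain ⟨h1, ⟨e⟩⟩ := quot_equiv_prod (b := 24) (zpowers_le.2 (mem_N M (u := w) (by decide +kernel)))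
    ((closure_le _).2 (by
      rintro _ ⟨i, hi, rfl⟩
      have hi : i < 2 := hi
      interval_cases i
      exacts [mem_N M (u := s0) (by decide +kernel), mem_N M (u := s1) (by decide +kernel)])) hc'
    (disjoint_def.2 fun {a} ha hb => by
      by_contra h
      exact not_mem_of_perm le_rfl eS (hc' a ha) h hb) (card_P M)
    (by rw [cZ, Nat.card_congr eS.some.toEquiv, Nat.card_perm, Nat.card_fin]; rfl) (by norm_num) (up M)
  exact ⟨h1, ⟨e.trans ((mulEquivOfCyclicCardEq (by rw [cZ]; simp)).prodCongr eS.some)⟩⟩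

theorem classes : ∃ A B : Subgroup Γ, Nat.card A = 5 ∧ Nat.card B = 5 ∧
    (∀ g : Γ, A.map (MulAut.conj g).toMonoidHom ≠ B) ∧ ∀ C : Subgroup Γ, Nat.card C = 5 →
      ∃ g : Γ, C.map (MulAut.conj g).toMonoidHom = A ∨ C.map (MulAut.conj g).toMonoidHom = B := by
  haveI := M.finite
  refine ⟨zpowers (y 10), zpowers (W y [10, 11, 11]), by rw [Nat.card_zpowers, o10 M], by rw [Nat.card_zpowers, o7 M],
    fun g h => ?_, fun C hC => ?_⟩
  · have h1 : ∀ p, p < 1782 → act 10 p = p → φ g p ∈ [1776, 1773] := fun p hp e => by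
      have : zpowers (g * y 10 * g⁻¹) ≤ fixB φ [φ g p] :=
        zpowers_le.2 (List.forall_mem_singleton.2 (fix_conj (by rw [M.apply 10 hp, e])))
      rw [← map_conj_zp, h] at this
      exact fix_mem' M (w := [10, 11, 11]) (by decide +kernel) (M.lt g hp)
        (this (mem_zpowers _) _ List.mem_cons_self)
    have a1 := h1 1776 (by decide) (by decide +kernel)
    have a2 := h1 1773 (by decide) (by decide +kernel)
    have a3 := h1 418 (by decide) (by decide +kernel)
    have b1 : φ g 1776 ≠ φ g 1773 := (φ g).injective.ne (by decide)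
    have b2 : φ g 1776 ≠ φ g 418 := (φ g).injective.ne (by decide)
    have b3 : φ g 1773 ≠ φ g 418 := (φ g).injective.ne (by decide)
    simp only [List.mem_cons, List.not_mem_nil, or_false] at a1 a2 a3
    omega
  · haveI : Fact (Nat.Prime 5) := ⟨by norm_num⟩
    obtain ⟨g, hg⟩ := conj_le_sylow (p := 5) (k := 2) (by norm_num) M.card (by norm_num) (card_P M)
      (IsPGroup.of_card (n := 1) (by rw [hC]; rfl))
    have c1 := (Known.card_map_conj g C).trans hC
    obtain ⟨e, he, ho⟩ := exists_zp (by norm_num) c1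
    obtain ⟨c, hc, rfl⟩ := mem_P M (hg (he ▸ mem_zpowers e)) (by rintro rfl; simp at ho)
    have := eq_app M (allL_iff.1 (show allL nz (fun c => (fun t : ℕ × ℕ × ℕ => eqB act _
      (appendL (nthL [] nsw t.1) (nthL [] ew c)) (appendL (List.replicate t.2.2 (bif' (Nat.beq t.2.1 0) [10] [10, 11, 11])).flatten
        (nthL [] nsw t.1))) (nthL (0, 0, 0) cert c)) = true by decide +kernel) c hc)
    have e2 : ∀ (m : ℕ) (u : List ℕ), W y (List.replicate m u).flatten = W y u ^ m := fun m u => by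
      induction m with
      | zero => simp
      | succ m ih => rw [List.replicate_succ, List.flatten_cons, W_append, ih, pow_succ']
    rw [e2] at this
    refine ⟨W y (nthL [] nsw (nthL (0, 0, 0) cert c).1) * g, ?_⟩
    rw [← map_conj_conj]
    revert this
    cases Nat.beq (nthL (0, 0, 0) cert c).2.1 0
    · exact fun h => Or.inr (conj_zp_of c1 (o7 M) he.le h)
    · exact fun h => Or.inl (conj_zp_of c1 (o10 M) he.le (by simpa using h))

end F5

theorem syl5 {G : Type*} [Group G] (h : Spor.IsoSuz G) (P : Sylow 5 G) :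
    (∃ A B : Subgroup G, Nat.card A = 5 ∧ Nat.card B = 5 ∧ (∀ g : G, A.map (MulAut.conj g).toMonoidHom ≠ B) ∧
      ∀ C : Subgroup G, Nat.card C = 5 →
        ∃ g : G, C.map (MulAut.conj g).toMonoidHom = A ∨ C.map (MulAut.conj g).toMonoidHom = B) ∧
    Nat.card (P : Subgroup G) = 25 ∧ Nat.card ↥(normalizer ((P : Subgroup G) : Set G)) = 600 ∧
    Nonempty (↥(normalizer ((P : Subgroup G) : Set G)) ⧸ (P : Subgroup G).subgroupOf
      (normalizer ((P : Subgroup G) : Set G)) ≃* Multiplicative (ZMod 4) × Perm (Fin 3)) := by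
  obtain ⟨φ, y, M⟩ := exists_md h
  haveI := M.finite
  haveI : Fact (Nat.Prime 5) := ⟨by norm_num⟩
  obtain ⟨g, hg⟩ := exists_conj_sylow (P := F5.P y) (k := 2) (F5.card_P M) M.card (by norm_num) P
  obtain ⟨φ', M'⟩ := M.cj g⁻¹
  have e : (P : Subgroup G) = F5.P fun j => g⁻¹⁻¹ * y j * g⁻¹ := by
    rw [← hg, F5.P, F5.P, Subgroup.map_sup, map_conj_zp, map_conj_zp, inv_inv]
  rw [e]
  exact ⟨F5.classes M, F5.card_P M', F5.quot M'⟩

end Cfsg.Agent.SuzR
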