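import Cfsg.Agent.SuzR.G3
import Cfsg.Agent.Small.O6m
import Cfsg.Agent.S0303
import Cfsg.Agent.S0280
import Cfsg.Agent.Comp.ES

/-! The Suzuki group is of Suzuki type: `G4.quot` (`C(a)/Q0 ≅ Ω⁻(6,2)`), `isType` (generated certificate, helper20). -/

set_option autoImplicit false
set_option maxRecDepth 100000

namespace Cfsg.Agent.SuzR

open Cfsg.Agent.Comp Cfsg.Agent.Known Cfsg.Agent.Small Subgroup Equiv Cfsg.Agent.Known.Mdl MulAction
open scoped Pointwise

namespace G4

open G1 G3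

def pa : List ℕ := [1664,1776,1668,1666,1670,1770,1672,1674,1774,1748,1758,1762,1680,1700,1712,1750,1756,1760,1713,1702,1681,
  1780,1778,1768,1698,1772,1696]

def pb : List ℕ := [1665,1777,1669,1667,1671,1771,1673,1675,1775,1749,1759,1763,1682,1701,1714,1751,1757,1761,1715,1703,1683,
  1781,1779,1769,1699,1773,1697]

def vw : List (List ℕ) := [[],[1,2,5,3,4,3,5,3,1,3,5,3,5,1,5,3,4,0,4],[1,5,4,0,4],[],[],[5,4,3,4,5,3,4,0,5,3,0,1,0],[2,4,2,5,2,3,4,3,2,
  5,2,3,4,3,2],[3,5,3,4,3,5,3,0,3,5,3,5,0,5,3,1,2,4,2,1]]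

def sgH : List (List ℕ) := [[1,6,7,2,5,7,6,1],[5,7,2,1,7,1,5],[7,2,1,7,1],[6,1,6],[1,5]]

/-- the group `Ω⁻(6,2)`. -/
abbrev Om : Type := Omega (ZMod 2) (quadFormMinus 2 (ZMod 2) 1 1)

theorem om {H : Subgroup O6mP.G} (hH : Nat.card H = 25920) : Nonempty (H ≃* Om) ∧ IsSimpleGroup Om := by
  obtain ⟨e⟩ := O6mT.equiv
  obtain ⟨f⟩ := S0303.result (ZMod.card 2) (K := Spor.F4) Spor.F4.card 1 1 (by decide)
  have hs := S0283.result (F := Spor.F4) (q := 2) Spor.F4.card 4 (by decide) (by decide)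
  have h := S0280.result (F := Spor.F4) (q := 2) Spor.F4.card 4 (by decide)
  simp only [Finset.prod_range_succ, Finset.prod_range_zero] at h
  have c1 : Nat.card (PSU 4 Spor.F4 2) = 25920 := by norm_num [PSU] at h ⊢; omega
  have := O6mT.mdl.finite
  have := Finite.of_equiv _ e.symm.toEquiv
  have h2 : H.index = 2 := by have := H.index_mul_card; rw [hH, O6mP.card] at this; omega
  have h3 : (commutator _).map e.toMonoidHom ≤ H := by
    rw [map_commutator_eq]
    refine commutator_le.2 fun a _ b _ => ?_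
    simp only [commutatorElement_def, mul_mem_iff_of_index_two h2, inv_mem_iff]
    tauto
  have c2 := card_eq_card_quotient_mul_card_subgroup (center Om)
  rw [Nat.card_congr f.toEquiv, c1] at c2
  have c3 := card_le_of_le h3
  rw [card_map_of_injective e.injective, hH] at c3
  have c4 : Nat.card (center Om) = 1 := by
    have := Nat.card_pos (α := center Om)
    change Nat.card Om ≤ _ at c3
    omega
  refine ⟨⟨(MulEquiv.subgroupCongr (eq_of_le_of_card_ge h3 ?_).symm).trans (e.subgroupMap _).symm⟩,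
    ((quot_center_equiv' c4).some.symm.trans f).isSimpleGroup⟩
  rw [card_map_of_injective e.injective, hH]
  exact (c2.trans (by rw [c4])).ge

/-- the orbits of `Q0` on the fixed points of `a`. -/
def pt (i : ℕ) : Set ℕ := {nthL 0 pa i, nthL 0 pb i}

theorem inj : ∀ i < 27, ∀ j < 27, pt i = pt j → i = j := fun i hi j hj h =>
  (show ∀ i < 27, ∀ j < 27, nthL 0 pa i = nthL 0 pa j ∨ nthL 0 pa i = nthL 0 pb j → i = j by decide +kernel) i hi j hj
    (show nthL 0 pa i ∈ pt j from h ▸ Or.inl rfl)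

variable {Γ : Type*} [Group Γ] {φ : Γ →* Perm ℕ} {y : ℕ → Γ} (M : Md φ y)
include M

theorem acts {j i s : ℕ} (hi : i < 27) (h : acS j (nthL 0 pa i) = nthL 0 pa s ∧ acS j (nthL 0 pb i) = nthL 0 pb s ∨
    acS j (nthL 0 pa i) = nthL 0 pb s ∧ acS j (nthL 0 pb i) = nthL 0 pa s) : φ (yS y j) • pt i = pt s := by
  have k : ∀ i < 27, nthL 0 pa i < 1782 ∧ nthL 0 pb i < 1782 := by decide +kernel
  rw [pt, Set.smul_set_insert, Set.smul_set_singleton, Perm.smul_def, Perm.smul_def, (mS M).apply j (k i hi).1,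
    (mS M).apply j (k i hi).2]
  rcases h with h | h <;> rw [h.1, h.2]
  exacts [rfl, Set.pair_comm _ _]

theorem quot : ∃ π : centralizer {y 0} →* Om, Function.Surjective π ∧ IsSimpleGroup Om ∧
    π.ker = (Spor.genL (yS y) lQ).subgroupOf (centralizer {y 0}) := by
  haveI := M.finite
  let x : ℕ → centralizer {y 0} := fun j => if h : j < 8 then ⟨yS y (15 + j), memC M (by revert j; decide)⟩ else 1
  let H := Spor.genL (fun j => W O6mT.y (nthL [] vw j)) (List.range 8)
  have hx : Spor.genL x (List.range 8) = ⊤ := map_injective (subtype_injective _) (by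
    rw [← MonoidHom.range_eq_map, range_subtype, Known.map_genL]
    refine le_antisymm (Spor.genL_le fun i _ => (x i).2) ((G1.cent M).le.trans (Spor.genL_le fun i hi => ?_))
    have k : ∀ i ∈ lC, i - 15 < 8 ∧ 15 + (i - 15) = i := by decide
    have := Spor.mem_genL (fun i => (centralizer {y 0}).subtype (x i)) (List.mem_range.2 (k i hi).1)
    simpa only [x, dif_pos (k i hi).1, coe_subtype, (k i hi).2] using this)
  obtain ⟨ψ, h1, h2⟩ := exists_hom_of_act ((toPermHom (Perm ℕ) (Set ℕ)).comp (φ.comp (Subgroup.subtype _))) pt x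
    (fun j => O6mP.φ (W O6mT.y (nthL [] vw j))) (List.range 8) inj (fun j _ => O6mT.mdl.fix _) fun j hj i hi => by
      rw [O6mT.mdl.applyW _ hi]
      simp only [x, dif_pos (List.mem_range.1 hj)]
      exact acts M (j := 15 + j) (s := actW O6mT.act (nthL [] vw j) i) hi (by revert i j; decide +kernel)
  let π := ψ.comp ((MonoidHom.id _).codRestrict _ fun a => hx ▸ mem_top a)
  have hπ : Function.Surjective π := h1.comp fun a => ⟨a, rfl⟩
  have h3 : (Spor.genL (yS y) lQ).subgroupOf (centralizer {y 0}) ≤ π.ker := by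
    rw [← map_le_map_iff_of_injective (subtype_injective _), map_subgroupOf_eq_of_le (Q_le M)]
    refine Spor.genL_le fun q hq => ⟨⟨_, Q_le M (Spor.mem_genL _ hq)⟩, Subtype.ext (Perm.ext fun i => ?_), rfl⟩
    have h4 := h2 ⟨⟨_, Q_le M (Spor.mem_genL _ hq)⟩, hx ▸ mem_top _⟩
    rcases le_or_gt 27 i with hi | hi
    · exact h4.1 i hi
    · exact (inj _ hi _ (Spor.perm_lt_of_fix h4.1 hi) ((acts M (j := q) hi
        (by clear h4; revert i q; decide +kernel)).symm.trans
        (h4.2 i hi))).symm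
  have c1 := card_le_of_le h3
  have c0 := (Nat.card_congr (subgroupOfEquivOfLe (Q_le M)).toEquiv).trans (card_Q M)
  have c2 := card_mul_card_ker hπ
  let e := (H.equivMapOfInjective _ O6mT.mdl.inj).trans (MulEquiv.subgroupCongr (Known.map_genL _ _ _))
  have c3 : 25920 ≤ Nat.card H := le_card_sub O6mT.mdl (mapL (flat vw) sgH) (fun w hw => by
    rw [mapL_eq] at hw
    obtain ⟨v, hv, rfl⟩ := List.mem_map.1 hw
    rw [W_flat]
    exact W_mem _ fun a ha => Spor.mem_genL _ (by revert a v; decide)) [0, 3, 1, 5, 9] 28 (by decide +kernel)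
  rw [← Nat.card_congr e.toEquiv, card_C M] at c2
  have c4 : Nat.card H = 25920 := by nlinarith
  obtain ⟨⟨f⟩, hs⟩ := om c4
  refine ⟨(e.symm.trans f).toMonoidHom.comp π, (e.symm.trans f).surjective.comp hπ, hs, ?_⟩
  rw [MonoidHom.ker_comp_of_injective _ _ (e.symm.trans f).injective]
  exact (eq_of_le_of_card_ge h3 (by rw [c4] at c2; omega)).symm

theorem type : orderOf (y 0) = 2 ∧ ∃ (Q : Subgroup (centralizer {y 0})) (_ : Q.Normal),
    generalizedFittingSubgroup (centralizer {y 0}) = Q ∧ IsExtraspecial 2 Q ∧ Nat.card Q = 2 ^ 7 ∧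
    Nonempty (centralizer {y 0} ⧸ Q ≃* Om) ∧ ∃ g : Γ, (∃ hq : g * y 0 * g⁻¹ ∈ centralizer {y 0},
      (⟨g * y 0 * g⁻¹, hq⟩ : centralizer {y 0}) ∈ Q) ∧ g * y 0 * g⁻¹ ≠ y 0 := by
  haveI := M.finite
  obtain ⟨π, h1, hs, h2⟩ := quot M
  have hL := le_Q M
  have c0 : Nat.card π.ker = 2 ^ 7 := h2 ▸ (Nat.card_congr (subgroupOfEquivOfLe (Q_le M)).toEquiv).trans (card_Q M)
  have c1 := card_mul_card_ker h1
  have := Finite.of_surjective π h1
  have e : Sig.pcIn 2 (⊤ : Subgroup (centralizer {y 0})) = π.ker := (Sig.pcIn_top 2).trans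
    (pCore_eq_ker h1 (IsPGroup.of_card c0) (Gen2.pCore_eq_bot_of_isSimpleGroup (not_comm_of_card (n := 25920)
      (by rw [c0, card_C M] at c1; omega) (by norm_num)) 2))
  have h3 : W (yS y) [14, 15, 13, 14, 13, 14] * y 0 * (W (yS y) [14, 15, 13, 14, 13, 14])⁻¹ = yS y 8 :=
    mul_inv_eq_iff_eq_mul.2 (by
      simpa only [W_cons, W_nil, mul_one, ya] using eq_app (mS M) (a := [14, 15, 13, 14, 13, 14]) (b := [12]) (c := [8])
        (d := [14, 15, 13, 14, 13, 14]) (by decide +kernel))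
  have h4 : yS y 8 ∈ Spor.genL (yS y) lQ := Spor.mem_genL _ (by decide)
  refine ⟨hL.z2, π.ker, inferInstance, ?_, h2 ▸ PGrp.ES_of_mulEquiv hL.isExtraspecial (subgroupOfEquivOfLe (Q_le M)).symm,
    c0, ⟨QuotientGroup.quotientKerEquivOfSurjective π h1⟩, W (yS y) [14, 15, 13, 14, 13, 14],
    ⟨h3 ▸ Q_le M h4, h2 ▸ mem_subgroupOf.2 (h3 ▸ h4 :)⟩, h3 ▸ fun h => ne_of (mS M) (u := [8]) (v := [12]) (b := 0)
      (by decide +kernel) (by simpa [ya] using h)⟩
  rw [← Sig.fstarIn_top, ← e, Sig.fstarIn_eq_pcIn_iff, e, h2]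
  refine inf_le_right.trans fun c hc => mem_subgroupOf.2 ?_
  rcases hL.cQ c fun q hq => (congrArg Subtype.val (hc ⟨q, Q_le M hq⟩ hq)).symm with h | h <;> rw [h]
  exacts [one_mem _, hL.zQ]

end G4

/-- a group isomorphic to the Suzuki group is of Suzuki type. -/
theorem isType {S : Type*} [Group S] (h : Spor.IsoSuz S) : ∃ z : S, orderOf z = 2 ∧
    ∃ (Q : Subgroup (centralizer ({z} : Set S))) (_ : Q.Normal),
      generalizedFittingSubgroup (centralizer ({z} : Set S)) = Q ∧ IsExtraspecial 2 Q ∧ Nat.card Q = 2 ^ 7 ∧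
      Nonempty (centralizer ({z} : Set S) ⧸ Q ≃* Omega (ZMod 2) (quadFormMinus 2 (ZMod 2) 1 1)) ∧
      ∃ g : S, (∃ hq : g * z * g⁻¹ ∈ centralizer ({z} : Set S), (⟨g * z * g⁻¹, hq⟩ : centralizer ({z} : Set S)) ∈ Q) ∧
        g * z * g⁻¹ ≠ z :=
  let ⟨_, _, M⟩ := exists_md h
  ⟨_, G4.type M⟩

end Cfsg.Agent.SuzR
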