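import Cfsg.Agent.SuzR.F1

/-! Letters `u` in the Suzuki group for its recognition (helper24): `0..11` = `x x⁻¹ y y⁻¹ p r q s z a b v` (the amalgam of
`U4(3)` in `C(y₀)`), `12, 13` = `y₀, y₀⁻¹`, `14` inverts `y₀`, `15` = `e`, `16, 17 ∈ O₂(C(z))`, `18` of order 3,
`19, 20` = `g, g⁻¹` with `g z g⁻¹ = s`, `21` = `b`, `22` = `d`. `mdU` is the model in these letters. -/

set_option autoImplicit false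
set_option maxRecDepth 100000

namespace Cfsg.Agent.SuzR

open Cfsg.Agent.Comp Cfsg.Agent.Known Subgroup

/-- the words. -/
def lw : List (List ℕ) := [[1, 5, 0, 1, 2, 3, 1, 2, 0, 1, 5, 6, 1, 2, 0, 1, 3, 2, 1, 0, 6, 1],
  [1, 6, 0, 1, 2, 3, 1, 0, 2, 1, 6, 5, 1, 0, 2, 1, 3, 2, 1, 0, 5, 1],
  [1, 6, 3, 2, 0, 1, 5, 6, 1, 2, 3, 2, 1, 6, 5, 1, 0, 2, 6, 1],
  [1, 6, 2, 0, 1, 5, 6, 1, 2, 3, 2, 1, 6, 5, 1, 0, 2, 3, 6, 1],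
  [5, 0],
  [6],
  [3, 2, 3],
  [2],
  [0],
  [1, 5, 2, 1, 0, 1, 5, 2, 1],
  [1, 6, 2, 1, 0, 1, 6, 1, 2, 1],
  [1, 2, 3, 2, 1, 0, 1, 2, 3, 2, 1],
  [3, 1, 2, 3, 1, 0, 1, 2, 3, 0, 1, 2, 3, 2, 1, 0, 1, 0, 2],
  [2, 0, 1, 0, 1, 2, 3, 2, 1, 0, 3, 2, 1, 0, 1, 3, 2, 1, 3],
  [0, 1, 5, 3, 1, 2, 0, 1, 6, 5, 1, 2, 3, 2, 0, 1, 6, 5, 1, 0, 2, 3, 6, 1],
  [4],
  [4, 3, 2, 3, 4],
  [3, 1, 2, 3, 1, 0, 1, 2, 3, 0, 1, 2, 3, 2, 1, 0, 1, 0, 2, 4, 3, 2, 3, 4, 2, 0, 1, 0, 1, 2, 3, 2, 1, 0, 3, 2, 1, 0, 1, 3, 2, 1, 3],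
  [3, 4, 1, 5, 0, 1, 2, 3, 1, 2, 0, 1, 5, 6, 1, 2, 0, 1, 3, 2, 1, 0, 6, 1, 4, 3],
  [1, 2, 0, 1, 0, 1],
  [1, 0, 1, 0, 2, 1],
  [1],
  [3]]

/-- the letters. -/
noncomputable def u (i : ℕ) : Cfsg.Spor.Suz := W T.y (nthL [] lw i)

/-- their action. -/
noncomputable def actU (i : ℕ) : ℕ → ℕ := actW act (nthL [] lw i)

/-- the base. -/
def BU : List ℕ := [0,1424,1712,1680,1779,1772,1777,1776]

theorem mdU : Mdl Spor.SuzM.φ 1782 23 448345497600 u actU BU :=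
  mdl.words lw [[8], [21], [7], [22], [15], [4, 8], [5]] (by decide +kernel)

theorem y_eq {i : ℕ} (h : i < 7) : T.y i = Spor.SuzM.g i := by
  have e : ∀ i < 7, nthL [0] T.wds i = [i] ∧ [i, i] ∈ Spor.JSuz1.rels := by decide +kernel
  rw [T.y, (e i h).1]
  exact inv_eq_of_mul_eq_one_right (Spor.SuzM.hg _ (e i h).2 ▸ by simp)

theorem u_g {i j : ℕ} (h : nthL [] lw i = [j] ∧ j < 7) : u i = Spor.SuzM.g j := by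
  rw [u, h.1, W_cons, y_eq h.2]; exact mul_one _

theorem u8 : u 8 = Spor.SuzM.g 0 := u_g (by decide)

end Cfsg.Agent.SuzR
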