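import Cfsg.Agent.SuzR.R1
import Cfsg.Agent.Known.J2Out

/-! Automorphisms of `K0 ≅ J₂` extend to `H0 ≅ G₂(4)` (`aut`); an element of a point stabiliser is pinned down by relations
(`pin`) (generated certificate, helper20). -/

set_option autoImplicit false
set_option maxRecDepth 100000
set_option exponentiation.threshold 100000

namespace Cfsg.Agent.SuzR

open Cfsg.Agent.Comp Cfsg.Agent.Known Subgroup Equiv Cfsg.Agent.Known.Mdl MulAction

def flatF (f : ℕ → List ℕ) (w : List ℕ) : List ℕ :=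
  List.rec (motive := fun _ => List ℕ) [] (fun a _ ih => appendL (f a) ih) w

theorem W_flatF {Γ : Type*} [Group Γ] (y : ℕ → Γ) (f : ℕ → List ℕ) (w : List ℕ) :
    W y (flatF f w) = W (fun j => W y (f j)) w := by
  induction w with
  | nil => rfl
  | cons a w ih => rw [W_cons, ← ih, ← W_append, ← appendL_eq]; rfl

theorem W_cg {Γ : Type*} [Group Γ] {y z : ℕ → Γ} {w : List ℕ} (h : ∀ i ∈ w, y i = z i) : W y w = W z w := by
  induction w with
  | nil => rfl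
  | cons a w ih => rw [W_cons, W_cons, h a List.mem_cons_self, ih fun i hi => h i (List.mem_cons_of_mem _ hi)]

namespace R2

def mw : List (List ℕ) := [[],[1],[2],[12],[1,2],[1,12],[2,1],[2,12],[12,2],[1,2,1],[1,2,12],[1,12,2],[2,1,12],[2,12,2],[12,2,1],[12,2,
  12],[1,2,1,12],[1,2,12,2],[1,12,2,1],[1,12,2,12],[2,1,12,2],[2,12,2,1],[2,12,2,12],[12,2,1,12],[12,2,12,2],[1,
  2,1,12,2],[1,2,12,2,1],[1,2,12,2,12],[1,12,2,1,12],[1,12,2,12,2],[2,1,12,2,1],[2,1,12,2,12],[2,12,2,1,12],[2,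
  12,2,12,2],[12,2,1,12,2],[12,2,12,2,1],[12,2,12,2,12],[1,2,1,12,2,1],[1,2,1,12,2,12],[1,2,12,2,1,12],[1,2,12,
  2,12,2],[1,12,2,1,12,2],[1,12,2,12,2,1],[1,12,2,12,2,12],[2,1,12,2,1,12],[2,1,12,2,12,2],[2,12,2,1,12,2],[2,
  12,2,12,2,1],[2,12,2,12,2,12],[12,2,1,12,2,1],[12,2,1,12,2,12],[12,2,12,2,1,12],[12,2,12,2,12,2],[1,2,1,12,2,
  1,12],[1,2,1,12,2,12,2],[1,2,12,2,1,12,2],[1,2,12,2,12,2,1],[1,2,12,2,12,2,12],[1,12,2,1,12,2,1],[1,12,2,1,12,
  2,12],[1,12,2,12,2,1,12],[1,12,2,12,2,12,2],[2,1,12,2,1,12,2],[2,1,12,2,12,2,1],[2,1,12,2,12,2,12],[2,12,2,1,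
  12,2,1],[2,12,2,1,12,2,12],[2,12,2,12,2,1,12],[2,12,2,12,2,12,2],[12,2,1,12,2,1,12],[12,2,1,12,2,12,2],[12,2,
  12,2,1,12,2],[12,2,12,2,12,2,1],[12,2,12,2,12,2,12],[1,2,1,12,2,1,12,2],[1,2,1,12,2,12,2,1],[1,2,1,12,2,12,2,
  12],[1,2,12,2,1,12,2,1],[1,2,12,2,1,12,2,12],[1,2,12,2,12,2,1,12],[1,2,12,2,12,2,12,2],[1,12,2,1,12,2,1,12],
  [1,12,2,1,12,2,12,2],[1,12,2,12,2,1,12,2],[1,12,2,12,2,12,2,1],[1,12,2,12,2,12,2,12],[2,1,12,2,1,12,2,1],[2,1,
  12,2,1,12,2,12],[2,1,12,2,12,2,1,12],[2,1,12,2,12,2,12,2],[2,12,2,1,12,2,1,12],[2,12,2,1,12,2,12,2],[2,12,2,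
  12,2,1,12,2],[2,12,2,12,2,12,2,1],[2,12,2,12,2,12,2,12],[12,2,1,12,2,1,12,2],[12,2,1,12,2,12,2,1],[12,2,1,12,
  2,12,2,12],[12,2,12,2,1,12,2,1],[12,2,12,2,1,12,2,12],[12,2,12,2,12,2,1,12],[12,2,12,2,12,2,12,2],[1,2,1,12,2,
  1,12,2,1],[1,2,1,12,2,1,12,2,12],[1,2,1,12,2,12,2,1,12],[1,2,1,12,2,12,2,12,2],[1,2,12,2,1,12,2,1,12],[1,2,12,
  2,1,12,2,12,2],[1,2,12,2,12,2,1,12,2],[1,2,12,2,12,2,12,2,1],[1,12,2,1,12,2,12,2,1],[1,12,2,1,12,2,12,2,12],
  [1,12,2,12,2,1,12,2,1],[1,12,2,12,2,1,12,2,12],[1,12,2,12,2,12,2,1,12],[1,12,2,12,2,12,2,12,2],[2,1,12,2,1,12,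
  2,12,2],[2,1,12,2,12,2,1,12,2],[2,1,12,2,12,2,12,2,1],[2,1,12,2,12,2,12,2,12],[2,12,2,1,12,2,1,12,2],[2,12,2,
  1,12,2,12,2,1],[2,12,2,1,12,2,12,2,12],[2,12,2,12,2,1,12,2,1],[2,12,2,12,2,1,12,2,12],[2,12,2,12,2,12,2,1,12],
  [12,2,1,12,2,1,12,2,1],[12,2,1,12,2,12,2,1,12],[12,2,1,12,2,12,2,12,2],[12,2,12,2,1,12,2,1,12],[12,2,12,2,1,
  12,2,12,2],[12,2,12,2,12,2,1,12,2],[1,2,1,12,2,1,12,2,12,2],[1,2,1,12,2,12,2,1,12,2],[1,2,1,12,2,12,2,12,2,1],
  [1,2,12,2,1,12,2,12,2,1],[1,2,12,2,1,12,2,12,2,12],[1,2,12,2,12,2,1,12,2,1],[1,2,12,2,12,2,1,12,2,12],[1,12,2,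
  1,12,2,12,2,1,12],[1,12,2,1,12,2,12,2,12,2],[1,12,2,12,2,1,12,2,1,12],[1,12,2,12,2,1,12,2,12,2],[1,12,2,12,2,
  12,2,1,12,2],[2,1,12,2,1,12,2,12,2,12],[2,1,12,2,12,2,1,12,2,1],[2,1,12,2,12,2,12,2,1,12],[2,12,2,1,12,2,1,12,
  2,1],[2,12,2,1,12,2,12,2,1,12],[2,12,2,1,12,2,12,2,12,2],[2,12,2,12,2,1,12,2,1,12],[12,2,1,12,2,12,2,12,2,12],
  [12,2,12,2,1,12,2,1,12,2],[12,2,12,2,1,12,2,12,2,1],[12,2,12,2,1,12,2,12,2,12],[12,2,12,2,12,2,1,12,2,12],[1,
  2,1,12,2,1,12,2,12,2,12],[1,2,12,2,1,12,2,12,2,1,12],[1,2,12,2,1,12,2,12,2,12,2],[1,2,12,2,12,2,1,12,2,1,12],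
  [1,12,2,12,2,1,12,2,12,2,1],[1,12,2,12,2,12,2,1,12,2,12],[2,1,12,2,1,12,2,12,2,12,2],[2,12,2,1,12,2,12,2,12,2,
  12],[2,12,2,12,2,1,12,2,1,12,2],[12,2,12,2,1,12,2,1,12,2,1],[1,2,1,12,2,1,12,2,12,2,12,2],[1,2,12,2,12,2,1,12,
  2,1,12,2]]

def mi : List ℕ := [8,1664,10,949,19,1562,1665,951,1173,17,307,885,1560,1175,70,533,305,1751,38,738,887,68,535,387,273,1750,15,
  1530,1176,704,36,736,385,275,883,451,99,13,1528,880,944,1748,1548,352,1178,706,881,449,97,51,1513,884,482,882,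
  946,1169,453,209,1449,439,389,1570,1749,1550,354,49,1515,886,480,1443,101,23,1411,710,1171,455,211,67,435,
  1182,336,196,213,14,1416,950,1448,437,391,1568,1441,103,21,1409,708,277,11,1491,514,740,1442,198,65,433,1180,
  338,100,356,1667,1413,64,516,386,1529,192,102,215,12,1418,948,279,9,1490,512,742,1440,96,1563,227,69,531,66,
  358,1666,1415,32,388,1489,529,309,1544,1450,1531,34,518,384,194,98,1561,225,71,486,1569,55,1488,311,390,945,
  229,53,1451,947,1546,484,1571,340,231,342]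

def jw : List (List ℕ) := [[4,2,3,4,2,0,1,0,3,2,1,3,2,4,3,2,1,2,3,4,3,4,1,2,3,2,1,0,1,2,4,3,4,2,1,0,1,2,3,2,1],[1,2,3,2,1,0,1,2,4,3,4,2,
  1,0,1,2,3,2,1,4,3,4,3,2,1,2,3,4,2,3,1,2,3,0,1,0,2,4,3,2,4],[3,2,4,3,4,1,0,1,2,3,0,1,2,4,1,3,2,3],[3,2,3,1,4,2,
  1,0,3,2,1,0,1,4,3,4,2,3],[0,3,1,4,2,1,0,2,3,2,1,4,3,4],[4,3,4,1,2,3,2,0,1,2,4,1,3,0],[0,1,2,0,3,1,2,0,1,0,1,2,
  3,4,2,1,0,1,0,1,2,3,0,1,0,2,1,2,3,4,2,3,2,3,1,2,3,4,1,0,1,2,3,0,1,2,3,2],[3,2,3,1,4,2,1,0,2,3,2,1,0,2,3,2,3,4,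
  2,3,4,2,3]]

def tw : List ℕ := [5,1,2,3,2,1,5,6,1,2,3,2,1,6,3,5,1,2,3,4,0,1,5,2,1,3,2,5,1,2,3,1,2,0,1,2,3,2,4,3,0,1,2,3,2,1,0,1,2,3,2,1,0,3,
  2,3,2,3,2,1,0,1,4,2,3,2,4,1,0,1,2,3,2,1,2]

def twi : List ℕ := [5,1,2,3,2,1,5,6,1,2,3,2,1,6,3,5,1,2,3,4,0,1,5,2,1,3,2,5,1,2,3,1,2,0,1,2,3,2,4,3,0,1,2,3,2,1,0,1,2,3,2,1,0,3,
  2,3,2,3,2,1,0,1,4,2,3,2,4,1,0,1,2,3,2,1,2]

def swp (i : ℕ) : List ℕ := [nthL 0 [0,1,2,3,4,6,5] i]

def jy (i : ℕ) : List ℕ := flat jw (nthL [0] J2O.wds i)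

def th (w : List ℕ) : List ℕ := flatF swp (appendL tw (appendL w twi))

local notation "φ0" => Spor.SuzM.φ

theorem exj : ∃ j : Spor.MdJ2.G →* Spor.Suz, Function.Injective j ∧ j.range = K0 ∧ K0 ≤ Spor.genL Y (List.range 5) ∧
    ∀ w, j (W J2O.y w) = W Y (flatF jy w) := by
  obtain ⟨j, hj⟩ := J2T.lifts _ (fun i => (W Y (nthL [] jw i))⁻¹) fun r hr => by
    have k : ∀ r ∈ Spor.JJ2m2.rels, eqB acR BS (flat jw r) [] = true := by decide +kernel
    rw [ev_inv, ← W_flat, inv_eq_one]; exact mR.eq (k r hr)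
  have := Spor.MdJ2.simple
  have hi : Function.Injective j := Spor.injective_of_simple j (x := Spor.MdJ2.g 0) (by
    rw [hj 0 (by decide), ne_eq, inv_eq_one]; exact ne_of mR (v := []) (b := 0) (by decide +kernel))
  have h1 : j.range ≤ Spor.genL Y (List.range 5) := by
    rw [MonoidHom.range_eq_map, ← Spor.MdJ2.rep.top, map_le_iff_le_comap]
    refine Spor.genL_le fun i hi => ?_
    rw [mem_comap, hj i (List.mem_range.1 hi)]
    exact inv_mem (W_mem _ fun a ha => Spor.mem_genL _ (by revert a i; decide +kernel))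
  have h2 : Spor.genL Y (List.range 5) ≤ K0 := Spor.genL_le fun i hi => lfix (by revert i; decide +kernel)
  have h3 := eq_of_le_of_card_ge (h1.trans h2) ((fx2 mdl).trans
    ((Nat.card_congr (MonoidHom.ofInjective hi).toEquiv).symm.trans Spor.MdJ2.card).ge)
  refine ⟨j, hi, h3, h3 ▸ h1, fun w => ?_⟩
  rw [map_W, W_flatF]
  refine W_cg fun i _ => ?_
  rw [J2O.y, map_inv, Spor.map_ev, Spor.ev_congr (g' := fun i => (W Y (nthL [] jw i))⁻¹) fun x hx => hj x ?_, ev_inv,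
    inv_inv, jy, W_flat]
  have k : ∀ w ∈ [0] :: J2O.wds, ∀ x ∈ w, x < 8 := by decide
  rcases nthL_mem_or [0] J2O.wds i with e | e
  · exact k _ (List.mem_cons_of_mem _ e) x hx
  · exact k _ List.mem_cons_self x (e ▸ hx)

theorem exth : ∃ θ : Spor.Suz →* Spor.Suz, Function.Injective θ ∧
    ∀ w, allL w (fun i => Nat.blt i 7) = true → θ (W Y w) = W Y (th w) := by
  obtain ⟨σ, hσ⟩ := lifts_of_ltOk Spor.SuzM.lt Spor.SuzM.rp _ (fun i => (W Y (swp i))⁻¹) fun r hr => by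
    have k : ∀ r ∈ Spor.JSuz1.rels, eqB acR BS (flatF swp r) [] = true := by decide +kernel
    rw [ev_inv, ← W_flatF, inv_eq_one]; exact mR.eq (k r hr)
  have h1 : ∀ w : List ℕ, (∀ i ∈ w, i < 7) → σ (W Y w) = W Y (flatF swp w) := fun w hw => by
    rw [map_W, W_flatF]
    exact W_cg fun i hi => by rw [Y_g (hw i hi), map_inv, hσ i (hw i hi), inv_inv]
  have := Spor.SuzM.simple
  refine ⟨σ.comp (MulAut.conj (W Y tw)).toMonoidHom, (Spor.injective_of_simple σ (x := W Y [0]) (by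
    rw [h1 _ (by decide)]; exact ne_of mR (v := []) (b := 0) (by decide +kernel))).comp (MulAut.conj _).injective,
    fun w hw => ?_⟩
  rw [th, ← h1 _ fun i hi => ?_, appendL_eq, appendL_eq, W_append, W_append, eq_inv_of_mul_eq_one_right
    ((eq_app mR (a := tw) (b := twi) (c := []) (d := []) (by decide +kernel)).trans (mul_one _)), ← mul_assoc]
  · rfl
  · rw [appendL_eq, appendL_eq, List.mem_append, List.mem_append] at hi
    rcases hi with hi | hi | hi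
    exacts [by revert i; decide +kernel, nblt.1 (allL_iff.1 hw i hi), by revert i; decide +kernel]

theorem memM {g : Spor.Suz} (hg : g ∈ fixB φ0 [1432, 1434, 1773, 1776]) : ∃ w ∈ mw, g = W Y w := by
  classical
  have h1 : (mw.map (W Y)).Nodup := List.Nodup.of_map (fun g => φ0 g 8) (by
    rw [List.map_map, List.map_congr_left (f := _ ∘ _) (g := fun w => actW acR w 8) fun w _ => mR.applyW w (by decide), ← mapL_eq,
      show mapL (fun w => actW acR w 8) mw = mi by decide +kernel]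
    decide +kernel)
  have h2 := Set.eq_of_subset_of_ncard_le (s := ((mw.map (W Y)).toFinset : Set Spor.Suz))
    (t := fixB φ0 [1432, 1434, 1773, 1776]) (fun g hg => by
      obtain ⟨w, hw, rfl⟩ := List.mem_map.1 (List.mem_toFinset.1 hg)
      clear hg; exact wfix (by revert w; decide +kernel)) (by
      rw [Set.ncard_coe_finset, List.toFinset_card_of_nodup h1, List.length_map, ← Nat.card_coe_set_eq]
      exact (fix_step mR (fix_step mR (fx2 mdl) 1434 100 6048 [[0], [14]] (by decide +kernel)) 1432 36 168 [[1], [7]]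
        (by decide +kernel)).trans (by decide +kernel))
  obtain ⟨w, hw, e⟩ := List.mem_map.1 (List.mem_toFinset.1 (h2.symm.subset hg))
  exact ⟨w, hw, e.symm⟩

theorem ss : Y 10 * Y 10 = 1 := by simpa using mR.eq (u := [10, 10]) (v := []) (by decide +kernel)

theorem fxM {v : Spor.Suz} (h : ∀ i ∈ [1, 2, 12], v * Y i = Y i * v) {p : ℕ} (hp : p ∈ [1432, 1434, 1773, 1776]) :
    φ0 v p ∈ [1432, 1434, 1773, 1776] := by
  have k : ∀ i ∈ [2, 12], φ0 (Y i) (φ0 v p) = φ0 v p := fun i hi => by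
    have := fix_conj (g := v) (lfix (i := i) (B := [1432, 1434, 1773, 1776]) (by revert i; decide +kernel) p hp)
    rwa [h i (List.mem_cons_of_mem _ hi), mul_inv_cancel_right] at this
  exact fix2 (by decide +kernel) (mR.lt v ((by decide : ∀ p ∈ [1432, 1434, 1773, 1776], p < 1782) p hp)) (k 2 (by decide)) (k 12 (by decide))

theorem cM1 {v : Spor.Suz} (h : ∀ i ∈ [1, 2, 12], v * Y i = Y i * v) (hx : φ0 v 1434 = 1434) (hp : φ0 v 1776 = 1776) :
    v = 1 := by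
  have i1 := (φ0 v).injective
  have a := fxM h (p := 1773) (by decide)
  have b := fxM h (p := 1432) (by decide)
  have n : ∀ {p q : ℕ}, p ≠ q → φ0 v p ≠ φ0 v q := fun h e => h (i1 e)
  have n1 := n (show 1773 ≠ 1434 by decide)
  have n2 := n (show 1773 ≠ 1776 by decide)
  have n3 := n (show 1432 ≠ 1434 by decide)
  have n4 := n (show 1432 ≠ 1776 by decide)
  have n5 := n (show 1432 ≠ 1773 by decide)
  simp only [List.mem_cons, List.not_mem_nil, or_false, hx, hp] at a b n1 n2 n3 n4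
  obtain ⟨d, hd, e⟩ : ∃ d ∈ [[], [10]], (W Y d)⁻¹ * v ∈ fixB φ0 [1432, 1434, 1773, 1776] := by
    rcases (show φ0 v 1773 = 1773 ∧ φ0 v 1432 = 1432 ∨ φ0 v 1773 = 1432 ∧ φ0 v 1432 = 1773 by omega) with c | c
    · exact ⟨[], by decide, by simp [mem_fixB, c, hx, hp]⟩
    · refine ⟨[10], by decide, ?_⟩
      simp only [mem_fixB, List.forall_mem_cons, List.not_mem_nil, false_imp_iff, implies_true, and_true, map_mul, map_inv,
        Perm.mul_apply, Perm.inv_eq_iff_eq, c, hx, hp]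
      exact ⟨(app (by decide +kernel)).symm, (app (by decide +kernel)).symm, (app (by decide +kernel)).symm,
        (app (by decide +kernel)).symm⟩
  obtain ⟨w, hw, e⟩ := memM e
  rw [inv_mul_eq_iff_eq_mul, ← W_append, ← appendL_eq] at e
  have k := allL_iff.1 (allL_iff.1 (show allL [[], [10]] (fun d => allL mw fun w => forceL (appendL d w) fun u =>
    bif' (allL [1, 2, 12] fun i => eqB acR BS (appendL u [i]) (i :: u)) (eqB acR BS u []) true) = true by decide +kernel)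
      d hd) w hw
  rw [forceL_eq, allL_iff.2 fun i hi => eqB_of mR (by decide) (by
    rw [appendL_eq, W_append, W_cons, W_cons, W_nil, mul_one, ← e, h i hi]), bif'_true] at k
  exact e.trans (mR.eq k)

end R2

open R2

local notation "φ0" => Spor.SuzM.φ

theorem K0_le : K0 ≤ Spor.genL Y (List.range 5) := exj.elim fun _ h => h.2.2.1

theorem card_K0 : Nat.card K0 = 604800 := exj.elim fun _ h =>
  h.2.1 ▸ (Nat.card_congr (MonoidHom.ofInjective h.1).toEquiv).symm.trans Spor.MdJ2.card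

theorem aut (γ : K0 →* Spor.Suz) (hi : Function.Injective γ) (hK : ∀ k, γ k ∈ K0) : ∃ θ : Spor.Suz →* Spor.Suz,
    Function.Injective θ ∧ (∀ h ∈ H0, θ h ∈ H0) ∧ ∀ k : K0, θ k = γ k := by
  obtain ⟨j, ij, hr, -, hj⟩ := exj
  let e : Spor.MdJ2.G ≃* K0 := (MonoidHom.ofInjective ij).trans (MulEquiv.subgroupCongr hr)
  let γ' : K0 ≃* K0 := MulEquiv.ofBijective (γ.codRestrict K0 hK)
    (Finite.injective_iff_bijective.1 fun a b h => hi (congrArg Subtype.val h))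
  let α : MulAut Spor.MdJ2.G := e.trans (γ'.trans e.symm)
  have hα : ∀ x, j (α x) = γ (e x) := fun x => congrArg Subtype.val (e.apply_symm_apply (γ' (e x)))
  obtain ⟨g, hg⟩ := J2O.data.cases α
  suffices h : ∃ θ : Spor.Suz →* Spor.Suz, Function.Injective θ ∧ (∀ h ∈ H0, θ h ∈ H0) ∧
      ∀ x, θ (j x) = j ((MulAut.conj g * α) x) by
    obtain ⟨θ, h1, h2, h3⟩ := h
    have hg : j g ∈ H0 := KH (e g).2
    refine ⟨(MulAut.conj (j g)⁻¹).toMonoidHom.comp θ, (MulAut.conj _).injective.comp h1, fun h hh =>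
      mul_mem (mul_mem (inv_mem hg) (h2 h hh)) (inv_mem (inv_mem hg)), fun k => ?_⟩
    obtain ⟨x, rfl⟩ := e.surjective k
    change (j g)⁻¹ * θ (j x) * (j g)⁻¹⁻¹ = _
    rw [h3, ← hα]; simp [mul_assoc]
  rcases hg _ rfl with h | h
  · exact ⟨MonoidHom.id _, Function.injective_id, fun _ h => h, fun x => by rw [h]; rfl⟩
  obtain ⟨θ, h1, h2⟩ := exth
  refine ⟨θ, h1, fun h hh => (show Spor.genL Y (List.range 6) ≤ H0.comap θ from Spor.genL_le fun i hi => ?_) (H0_le hh),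
    DFunLike.congr_fun (MonoidHom.eq_of_eqOn_dense (f := θ.comp j) (g := j.comp (MulAut.conj g * α).toMonoidHom)
      J2O.data.top ?_)⟩
  · have k : ∀ i ∈ List.range 6, allL [i] (fun i => Nat.blt i 7) = true ∧ allL [1776] (fun p => band (Nat.blt p 1782)
      (Nat.beq (actW acR (th [i]) p) p)) = true := by decide +kernel
    rw [mem_comap, ← mul_one (Y i), show θ (Y i * 1) = _ from h2 [i] (k i hi).1]
    exact wfix (k i hi).2
  have k : ∀ u v, band (allL (flatF jy u) fun i => Nat.blt i 7) (eqB acR BS (th (flatF jy u)) (flatF jy v)) = true →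
      θ (j (W J2O.y u)) = j (W J2O.y v) := fun u v h => by
    rw [band_eq, Bool.and_eq_true] at h
    rw [hj, hj, h2 _ h.1, mR.eq h.2]
  rintro x (rfl | rfl | rfl)
  · exact (k _ J2O.cw (by decide +kernel)).trans (congrArg j (h.1.trans (pow_one _)).symm)
  · have := k [9] [9] (by decide +kernel)
    rw [W_cons, W_nil, mul_one] at this
    exact this.trans (congrArg j h.2.1.symm)
  · exact (k _ J2O.v0w (by decide +kernel)).trans (congrArg j h.2.2.symm)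

theorem pin {y : Spor.Suz} (hx : φ0 y 1434 = 1434) (hp : φ0 y 1776 ≠ 1776) (h1 : y * Y 1 = Y 1 * y)
    (h2 : y * Y 2 = Y 2 * y) (h3 : y * Y 12 = Y 1 * Y 12 * y) (h4 : (Y 7 * y) ^ 10 = 1) : y = Y 11 := by
  have hv : ∀ i ∈ [1, 2, 12], Y 10 * y * Y i = Y i * (Y 10 * y) := by
    have e1 : Y 10 * Y 1 = Y 1 * Y 10 := by simpa using mR.eq (u := [10, 1]) (v := [1, 10]) (by decide +kernel)
    have e2 : Y 10 * Y 2 = Y 2 * Y 10 := by simpa using mR.eq (u := [10, 2]) (v := [2, 10]) (by decide +kernel)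
    have e3 : Y 10 * (Y 1 * Y 12) = Y 12 * Y 10 := by
      simpa using mR.eq (u := [10, 1, 12]) (v := [12, 10]) (by decide +kernel)
    simp only [List.forall_mem_cons, List.not_mem_nil, false_imp_iff, implies_true, and_true]
    exact ⟨by rw [mul_assoc, h1, ← mul_assoc, e1, mul_assoc], by rw [mul_assoc, h2, ← mul_assoc, e2, mul_assoc],
      by rw [mul_assoc, h3, ← mul_assoc, e3, mul_assoc]⟩
  have k : ∀ w, band (band (band (Nat.blt 1434 1782) (Nat.beq (actW acR (appendL w [10]) 1434) 1434))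
      (allL [1, 2, 12] fun i => eqB acR BS (appendL w [i]) (appendL [i] w)))
      (band (Nat.blt (φ0 y 1776) 1782) (Nat.beq (actW acR (appendL w [10]) (φ0 y 1776)) 1776)) = true →
      y = (W Y w * Y 10)⁻¹ := fun w h => by
    rw [band_eq, band_eq, Bool.and_eq_true, Bool.and_eq_true] at h
    have e : W Y (appendL w [10]) = W Y w * Y 10 := by rw [appendL_eq, W_append, W_cons, W_nil, mul_one]
    refine eq_inv_of_mul_eq_one_right (cM1 (fun i hi => ?_) ?_ ?_)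
    · have := eq_app mR (allL_iff.1 h.1.2 i hi)
      rw [W_cons, W_nil, mul_one] at this
      rw [mul_assoc (W Y w), mul_assoc, hv i hi, ← mul_assoc, this, mul_assoc]
    · rw [map_mul, Perm.mul_apply, hx, ← e, app h.1.1]
    · rw [map_mul, Perm.mul_apply, ← e, app h.2]
  have a := fxM hv (p := 1776) (by decide)
  rw [map_mul, Perm.mul_apply] at a
  have s : ∀ p q, band (Nat.blt q 1782) (Nat.beq (actW acR [10] q) p) = true → φ0 (Y 10) (φ0 y 1776) = p → φ0 y 1776 = q :=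
    fun p q h e => (φ0 (Y 10)).injective (by rw [e, ← app h, W_cons, W_nil, mul_one])
  simp only [List.mem_cons, List.not_mem_nil, or_false] at a
  rcases a with a | a | a | a
  · rw [k [10, 11] (by rw [s _ 1773 (by decide +kernel) a]; decide +kernel)] at h4
    have e : Y 7 * (W Y [10, 11] * Y 10)⁻¹ = W Y [7, 10, 11, 10] := by
      rw [mul_inv_eq_iff_eq_mul]
      simpa [mul_assoc] using mR.eq (u := [7]) (v := [7, 10, 11, 10, 10, 11, 10]) (by decide +kernel)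
    have := ne_of mR (u := flat [[7, 10, 11, 10]] (rp 0 10 [])) (v := []) (b := 0) (by decide +kernel)
    rw [W_flat, W_rp, W_nil, W_nil, mul_one] at this
    exact absurd (e ▸ h4) this
  · exact absurd ((φ0 y).injective ((s _ 1434 (by decide +kernel) a).trans hx.symm)) (by decide)
  · rw [k [11, 10] (by rw [s _ 1432 (by decide +kernel) a]; decide +kernel), inv_eq_iff_mul_eq_one]
    simpa [mul_assoc] using mR.eq (u := [11, 10, 10, 11]) (v := []) (by decide +kernel)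
  · exact absurd (s _ 1776 (by decide +kernel) a) hp

end Cfsg.Agent.SuzR
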